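import Mathlib
import Cfsg.Prelude.Def_Sporadic_a
import Cfsg.Prelude.Def_Sporadic
import Cfsg.Agent.Lib.Sporadic.M24Act

/-!
# Automorphism groups of set systems under isomorphism; the group of the octads

`setSystemAut` transports along a `SetSystemIso`, and the automorphism group of the octads is
the group of the code.
-/

set_option autoImplicit false

namespace Cfsg.Agent.Lib.BasicSteiner.WittAut

open Cfsg Cfsg.Agent.Lib.Sporadic.GolayCore Cfsg.Agent.Lib.Sporadic.M24Tbl
open Cfsg.Agent.Lib.Sporadic.M24Chain Cfsg.Agent.Lib.Sporadic.M24Basic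
open scoped Pointwise

section Transport

variable {α β : Type*} [DecidableEq α] [DecidableEq β]

theorem image_smul (e : α ≃ β) (g : Equiv.Perm α) (b : Finset α) :
    (g • b).image e = (e.permCongr g) • (b.image e) := by
  ext x
  simp only [Finset.mem_image, Finset.mem_smul_finset, Equiv.Perm.smul_def, exists_exists_and_eq_and]
  constructor
  · rintro ⟨a, ha, rfl⟩
    exact ⟨a, ha, by simp [Equiv.permCongr_apply]⟩
  · rintro ⟨a, ha, rfl⟩
    exact ⟨a, ha, by simp [Equiv.permCongr_apply]⟩

theorem mem_aut_of_iso (e : α ≃ β) {B : Set (Finset α)} {B' : Set (Finset β)}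
    (h : (fun b => b.image e) '' B = B') {g : Equiv.Perm α} (hg : g ∈ setSystemAut B) :
    e.permCongr g ∈ setSystemAut B' := by
  rw [setSystemAut, MulAction.mem_stabilizer_iff] at hg ⊢
  subst h
  ext c
  simp only [Set.mem_smul_set, Set.mem_image]
  constructor
  · rintro ⟨_, ⟨b, hb, rfl⟩, rfl⟩
    refine ⟨g • b, ?_, (image_smul e g b)⟩
    rw [← hg]
    exact Set.smul_mem_smul_set hb
  · rintro ⟨b, hb, rfl⟩
    rw [← hg] at hb
    obtain ⟨b', hb', rfl⟩ := hb
    exact ⟨b'.image e, ⟨b', hb', rfl⟩, (image_smul e g b').symm⟩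

theorem iso_symm (e : α ≃ β) {B : Set (Finset α)} {B' : Set (Finset β)}
    (h : (fun b => b.image e) '' B = B') : (fun b => b.image e.symm) '' B' = B := by
  subst h
  ext c
  simp only [Set.mem_image, exists_exists_and_eq_and]
  constructor
  · rintro ⟨b, hb, rfl⟩
    simpa [Finset.image_image] using hb
  · intro hc
    exact ⟨c, hc, by simp [Finset.image_image]⟩

/-- The isomorphism of automorphism groups induced by an isomorphism of set systems. -/
noncomputable def autEquiv (e : α ≃ β) {B : Set (Finset α)} {B' : Set (Finset β)}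
    (h : (fun b => b.image e) '' B = B') : setSystemAut B ≃* setSystemAut B' where
  toFun g := ⟨e.permCongr g, mem_aut_of_iso e h g.2⟩
  invFun g := ⟨e.symm.permCongr g, mem_aut_of_iso e.symm (iso_symm e h) g.2⟩
  left_inv g := by
    ext a
    simp [Equiv.permCongr_apply]
  right_inv g := by
    ext a
    simp [Equiv.permCongr_apply]
  map_mul' g g' := by
    ext a
    simp [Equiv.permCongr_apply]

theorem autEquiv_apply (e : α ≃ β) {B : Set (Finset α)} {B' : Set (Finset β)}
    (h : (fun b => b.image e) '' B = B') (g : setSystemAut B) (a : α) :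
    ((autEquiv e h g : setSystemAut B') : Equiv.Perm β) (e a) = e ((g : Equiv.Perm α) a) := by
  simp [autEquiv, Equiv.permCongr_apply]

theorem pretransitive_of_iso (e : α ≃ β) {B : Set (Finset α)} {B' : Set (Finset β)}
    (h : (fun b => b.image e) '' B = B') (n : ℕ)
    [MulAction.IsMultiplyPretransitive (setSystemAut B') β n] :
    MulAction.IsMultiplyPretransitive (setSystemAut B) α n := by
  refine ⟨fun x y => ?_⟩
  obtain ⟨g, hg⟩ := MulAction.exists_smul_eq (setSystemAut B') (x.trans e.toEmbedding)
    (y.trans e.toEmbedding)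
  refine ⟨(autEquiv e h).symm g, ?_⟩
  ext i
  have h1 := congrArg (fun z : Fin n ↪ β => z i) hg
  simp only [Function.Embedding.smul_apply, Function.Embedding.trans_apply,
    Equiv.coe_toEmbedding] at h1
  have h2 := autEquiv_apply e h ((autEquiv e h).symm g) (x i)
  simp only [MulEquiv.apply_symm_apply] at h2
  simp only [Function.Embedding.smul_apply]
  apply e.injective
  exact h2.symm.trans h1

theorem isSimple_of_iso (e : α ≃ β) {B : Set (Finset α)} {B' : Set (Finset β)}
    (h : (fun b => b.image e) '' B = B') [IsSimpleGroup (setSystemAut B')] :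
    IsSimpleGroup (setSystemAut B) :=
  (autEquiv e h).isSimpleGroup

theorem card_of_iso (e : α ≃ β) {B : Set (Finset α)} {B' : Set (Finset β)}
    (h : (fun b => b.image e) '' B = B') :
    Nat.card (setSystemAut B) = Nat.card (setSystemAut B') :=
  Nat.card_congr (autEquiv e h).toEquiv

end Transport

/-! ### The group of the octads -/

/-- If the images of the octad words in `L` under `g` are octads and `L` spans the basis of
the code, then `g` preserves the code. -/
theorem word_mem_of_octad {g : Equiv.Perm GolayPt} {m : ℕ}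
    (hg : g • ofMask m ∈ octads) : (fun p => wordOf m (g⁻¹ p)) ∈ golayCode := by
  obtain ⟨⟨w, hw, hw'⟩, -⟩ := hg
  have key : (fun p => wordOf m (g⁻¹ p)) = w := ?_
  · rw [key]; exact hw
  funext p
  have h1 : p ∈ support₂ w ↔ g⁻¹ p ∈ ofMask m := by
    rw [hw', Finset.mem_smul_finset]
    constructor
    · rintro ⟨q, hq, rfl⟩
      simpa using hq
    · intro hq
      exact ⟨_, hq, by simp⟩
  have h2 : p ∈ support₂ w ↔ w p ≠ 0 := by simp [support₂]
  rw [h2, mem_ofMask] at h1
  simp only [wordOf]
  by_cases h3 : m.testBit (idx (g⁻¹ p)) = true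
  · rw [if_pos h3]
    exact (zmod2_eq_one_of_ne (h1.2 h3)).symm
  · rw [if_neg h3]
    by_contra h4
    exact h3 (h1.1 (fun h5 => h4 h5.symm))

theorem basis_isOctad : ∀ b ∈ basisList, isOctad b = true := by decide +kernel

theorem setSystemAut_octads : setSystemAut octads = M24 := by
  ext g
  constructor
  · intro hg
    apply mem_M24_of_basis
    intro b hb
    have h0 := isOctad_ofMask (basis_isOctad b hb)
    refine word_mem_of_octad ?_
    have h : g • octads = octads := MulAction.mem_stabilizer_iff.1 hg
    rw [← h]
    exact Set.smul_mem_smul_set h0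
  · intro hg
    rw [setSystemAut, MulAction.mem_stabilizer_iff]
    have hsub : g • octads ⊆ octads := by
      rintro _ ⟨s, hs, rfl⟩
      exact smul_mem_octads hg hs
    apply Set.eq_of_subset_of_ncard_le hsub
    rw [Set.ncard_smul_set]

/-- `M24` is the automorphism group of the octads, transporting the action. -/
theorem m24_fiveTrans_octads :
    MulAction.IsMultiplyPretransitive (setSystemAut octads) GolayPt 5 := by
  rw [setSystemAut_octads]
  exact m24_fiveTrans

end Cfsg.Agent.Lib.BasicSteiner.WittAut
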