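import Cfsg.Agent.Lib.BasicSteiner.Count
import Cfsg.Agent.Lib.BasicSteiner.Search
import Cfsg.Agent.S0352
import Cfsg.Agent.S0355
import Cfsg.Agent.S0356
import Cfsg.Agent.S1595

/-!
# The intersection sizes of blocks of the small Steiner systems, in the form of the search
-/

set_option autoImplicit false

namespace Cfsg.Agent.Lib.BasicSteiner.Witt.Inter

open Cfsg.Agent.Lib.BasicSteiner.Count Cfsg.Agent.Lib.BasicSteiner.Search

variable {α : Type*} [Fintype α] [DecidableEq α]

theorem inter_4_5_11 (hα : Fintype.card α = 11) {B : Set (Finset α)} (hB : Cfsg.IsSteinerSystem 4 5 B)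
    {b c : Finset α} (hb : b ∈ B) (hc : c ∈ B) (hbc : b ≠ c) :
    (b ∩ c).card = 1 ∨ (b ∩ c).card = 2 ∨ (b ∩ c).card = 3 := by
  classical
  have hK : ∀ c ∈ blocks B, (c ∩ b).card < 6 := by
    intro c hc
    have h1 : (c ∩ b).card ≤ c.card := Finset.card_le_card Finset.inter_subset_left
    rw [hB.1 c (mem_blocks.mp hc)] at h1
    omega
  have hb5 : b.card = 5 := hB.1 b hb
  have heq : ∀ j lam : ℕ, j ≤ 4 → 0 < (5 - j).choose (4 - j) →
      lam * (5 - j).choose (4 - j) = (11 - j).choose (4 - j) →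
      ∑ i ∈ Finset.range 6, ((blocks B).filter (fun c => (c ∩ b).card = i)).card * i.choose j =
        (5).choose j * lam := by
    intro j lam hj hpos hlam
    rw [← sum_choose_fiberwise B b j 6 hK, sum_choose_inter_eq hB b j lam hj hpos (by rw [hα]; exact hlam), hb5]
  have hbig : ∀ c ∈ blocks B, 4 ≤ (c ∩ b).card → c = b := by
    intro c hc h
    exact eq_of_card_inter_ge hB (mem_blocks.mp hc) hb h
  have hzero4 : ((blocks B).filter (fun c => (c ∩ b).card = 4)).card = 0 := by
    rw [Finset.card_eq_zero, Finset.filter_eq_empty_iff]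
    intro c hc hci
    have := hbig c hc (by omega)
    subst this
    rw [Finset.inter_self, hb5] at hci
    omega
  have hone : ((blocks B).filter (fun c => (c ∩ b).card = 5)).card = 1 := by
    rw [Finset.card_eq_one]
    refine ⟨b, ?_⟩
    ext c
    simp only [Finset.mem_filter, Finset.mem_singleton]
    constructor
    · rintro ⟨hc, hci⟩
      exact hbig c hc (by omega)
    · rintro rfl
      exact ⟨mem_blocks.mpr hb, by rw [Finset.inter_self, hb5]⟩
  have e0 := heq 0 66 (by norm_num) (by decide) (by decide)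
  have e1 := heq 1 30 (by norm_num) (by decide) (by decide)
  have e2 := heq 2 12 (by norm_num) (by decide) (by decide)
  have e3 := heq 3 4 (by norm_num) (by decide) (by decide)
  simp only [Finset.sum_range_succ, Finset.sum_range_zero, hzero4, hone] at e0 e1 e2 e3
  have hcB : c ∈ blocks B := mem_blocks.mpr hc
  have hcb : (c ∩ b).card = (b ∩ c).card := by rw [Finset.inter_comm]
  rw [← hcb]
  have hle : (c ∩ b).card ≤ 3 := by
    by_contra hcon
    exact hbc (hbig c hcB (by omega)).symm
  have hmem : ∀ i, (c ∩ b).card = i → ((blocks B).filter (fun c => (c ∩ b).card = i)).card ≠ 0 := by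
    intro i hi
    exact Finset.card_ne_zero.mpr ⟨c, Finset.mem_filter.mpr ⟨hcB, hi⟩⟩
  have h0 := hmem 0
  generalize ((blocks B).filter (fun c => (c ∩ b).card = 0)).card = x0 at *
  generalize ((blocks B).filter (fun c => (c ∩ b).card = 1)).card = x1 at *
  generalize ((blocks B).filter (fun c => (c ∩ b).card = 2)).card = x2 at *
  generalize ((blocks B).filter (fun c => (c ∩ b).card = 3)).card = x3 at *
  norm_num [Nat.choose] at e0 e1 e2 e3
  have hx0 : x0 = 0 := by omega
  have hne0 : (c ∩ b).card ≠ 0 := fun h => h0 h hx0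
  omega

theorem inter_2_5_21 (hα : Fintype.card α = 21) {B : Set (Finset α)} (hB : Cfsg.IsSteinerSystem 2 5 B)
    {b c : Finset α} (hb : b ∈ B) (hc : c ∈ B) (hbc : b ≠ c) : (b ∩ c).card = 1 := by
  classical
  have hK : ∀ c ∈ blocks B, (c ∩ b).card < 6 := by
    intro c hc
    have h1 : (c ∩ b).card ≤ c.card := Finset.card_le_card Finset.inter_subset_left
    rw [hB.1 c (mem_blocks.mp hc)] at h1
    omega
  have hb5 : b.card = 5 := hB.1 b hb
  have heq : ∀ j lam : ℕ, j ≤ 2 → 0 < (5 - j).choose (2 - j) →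
      lam * (5 - j).choose (2 - j) = (21 - j).choose (2 - j) →
      ∑ i ∈ Finset.range 6, ((blocks B).filter (fun c => (c ∩ b).card = i)).card * i.choose j =
        (5).choose j * lam := by
    intro j lam hj hpos hlam
    rw [← sum_choose_fiberwise B b j 6 hK, sum_choose_inter_eq hB b j lam hj hpos (by rw [hα]; exact hlam), hb5]
  have hbig : ∀ c ∈ blocks B, 2 ≤ (c ∩ b).card → c = b := by
    intro c hc h
    exact eq_of_card_inter_ge hB (mem_blocks.mp hc) hb h
  have hzero : ∀ i, 2 ≤ i → i ≠ 5 → ((blocks B).filter (fun c => (c ∩ b).card = i)).card = 0 := by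
    intro i hi hi5
    rw [Finset.card_eq_zero, Finset.filter_eq_empty_iff]
    intro c hc hci
    have := hbig c hc (by omega)
    subst this
    rw [Finset.inter_self, hb5] at hci
    omega
  have hone : ((blocks B).filter (fun c => (c ∩ b).card = 5)).card = 1 := by
    rw [Finset.card_eq_one]
    refine ⟨b, ?_⟩
    ext c
    simp only [Finset.mem_filter, Finset.mem_singleton]
    constructor
    · rintro ⟨hc, hci⟩
      exact hbig c hc (by omega)
    · rintro rfl
      exact ⟨mem_blocks.mpr hb, by rw [Finset.inter_self, hb5]⟩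
  have e0 := heq 0 21 (by norm_num) (by decide) (by decide)
  have e1 := heq 1 5 (by norm_num) (by decide) (by decide)
  have z2 := hzero 2 (by norm_num) (by norm_num)
  have z3 := hzero 3 (by norm_num) (by norm_num)
  have z4 := hzero 4 (by norm_num) (by norm_num)
  simp only [Finset.sum_range_succ, Finset.sum_range_zero, z2, z3, z4, hone] at e0 e1
  have hcB : c ∈ blocks B := mem_blocks.mpr hc
  have hcb : (c ∩ b).card = (b ∩ c).card := by rw [Finset.inter_comm]
  rw [← hcb]
  have hle : (c ∩ b).card ≤ 1 := by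
    by_contra hcon
    exact hbc (hbig c hcB (by omega)).symm
  have hmem : ∀ i, (c ∩ b).card = i → ((blocks B).filter (fun c => (c ∩ b).card = i)).card ≠ 0 := by
    intro i hi
    exact Finset.card_ne_zero.mpr ⟨c, Finset.mem_filter.mpr ⟨hcB, hi⟩⟩
  have h0 := hmem 0
  generalize ((blocks B).filter (fun c => (c ∩ b).card = 0)).card = x0 at *
  generalize ((blocks B).filter (fun c => (c ∩ b).card = 1)).card = x1 at *
  norm_num [Nat.choose] at e0 e1
  have hx0 : x0 = 0 := by omega
  have hne0 : (c ∩ b).card ≠ 0 := fun h => h0 h hx0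
  omega

theorem allowed_4_5_11 (hα : Fintype.card α = 11) {B : Set (Finset α)} (hB : Cfsg.IsSteinerSystem 4 5 B) :
    ∀ b ∈ B, ∀ c ∈ B, b ≠ c → allowedB 14 (b ∩ c).card = true := by
  intro b hb c hc hbc
  rcases inter_4_5_11 hα hB hb hc hbc with h | h | h <;> rw [h] <;> rfl

theorem allowed_2_5_21 (hα : Fintype.card α = 21) {B : Set (Finset α)} (hB : Cfsg.IsSteinerSystem 2 5 B) :
    ∀ b ∈ B, ∀ c ∈ B, b ≠ c → allowedB 2 (b ∩ c).card = true := by
  intro b hb c hc hbc
  rw [inter_2_5_21 hα hB hb hc hbc]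
  rfl

theorem allowed_5_6_12 (hα : Fintype.card α = 12) {B : Set (Finset α)} (hB : Cfsg.IsSteinerSystem 5 6 B) :
    ∀ b ∈ B, ∀ c ∈ B, b ≠ c → allowedB 29 (b ∩ c).card = true := by
  intro b hb c hc hbc
  rcases (Cfsg.Agent.S1595.result hα hB b hb).1 c hc hbc.symm with h | h | h | h <;> rw [h] <;> rfl

theorem allowed_3_6_22 (hα : Fintype.card α = 22) {B : Set (Finset α)} (hB : Cfsg.IsSteinerSystem 3 6 B) :
    ∀ b ∈ B, ∀ c ∈ B, b ≠ c → allowedB 5 (b ∩ c).card = true := by
  intro b hb c hc hbc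
  rcases Cfsg.Agent.S0356.result hα hB hb hc hbc with h | h <;> rw [h] <;> rfl

theorem allowed_4_7_23 (hα : Fintype.card α = 23) {B : Set (Finset α)} (hB : Cfsg.IsSteinerSystem 4 7 B) :
    ∀ b ∈ B, ∀ c ∈ B, b ≠ c → allowedB 10 (b ∩ c).card = true := by
  intro b hb c hc hbc
  rcases Cfsg.Agent.S0355.result hα hB hb hc hbc with h | h <;> rw [h] <;> rfl

theorem allowed_5_8_24 (hα : Fintype.card α = 24) {B : Set (Finset α)} (hB : Cfsg.IsSteinerSystem 5 8 B) :
    ∀ b ∈ B, ∀ c ∈ B, b ≠ c → allowedB 21 (b ∩ c).card = true := by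
  intro b hb c hc hbc
  rcases Cfsg.Agent.S0352.result hα hB hb hc hbc with h | h | h <;> rw [h] <;> rfl

end Cfsg.Agent.Lib.BasicSteiner.Witt.Inter
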