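import Mathlib

/-!
# A simplicity criterion for a rank three group of degree 100

A transitive faithful group on 100 points, with simple stabiliser of a point having orbits of lengths
1, 22 and 77 and containing an element of order 11, is simple.
-/

set_option autoImplicit false

namespace Cfsg.Agent.Lib.BasicSteiner.Witt.Rank3

open MulAction

/-- A group of order 100 has no fixed-point-free automorphism of order 11. -/
theorem no_fpf_100 {N : Type*} [Group N] (hN : Nat.card N = 100) (f : N ≃* N) (hf : ∀ x, (f ^ 11) x = x)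
    (hfix : ∀ x, f x = x → x = 1) : False := by
  classical
  have hfin : Finite N := Nat.finite_of_card_ne_zero (by omega)
  haveI : Fact (Nat.Prime 5) := ⟨by norm_num⟩
  haveI : Fact (Nat.Prime 11) := ⟨by norm_num⟩
  let P : Sylow 5 N := default
  have hcardP : Nat.card P = 25 := by
    have h1 := P.card_eq_multiplicity
    have h2 : Nat.factorization 100 5 = 2 := by
      have : (100 : ℕ) = 5 ^ 2 * 4 := by norm_num
      rw [this, Nat.factorization_mul (by norm_num) (by norm_num), Nat.Prime.factorization_pow (by norm_num)]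
      have h4 : Nat.factorization 4 5 = 0 := Nat.factorization_eq_zero_of_not_dvd (by norm_num)
      simp [h4]
    rw [hN, h2] at h1
    exact h1
  have hsub : Subsingleton (Sylow 5 N) := by
    have h1 := card_sylow_modEq_one 5 N
    have h2 := P.card_dvd_index
    have h3 : (P : Subgroup N).index = 4 := by
      have := (P : Subgroup N).card_mul_index
      rw [hN] at this
      have h5 : Nat.card (P : Subgroup N) = 25 := hcardP
      rw [h5] at this
      omega
    rw [h3] at h2
    have h4 : Nat.card (Sylow 5 N) ≤ 4 := Nat.le_of_dvd (by norm_num) h2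
    have h5 : Nat.card (Sylow 5 N) = 1 := by
      have h6 : Nat.card (Sylow 5 N) ≠ 0 := Nat.card_pos.ne'
      unfold Nat.ModEq at h1
      omega
    exact (Nat.card_eq_one_iff_unique.mp h5).1
  have hchar : (P : Subgroup N).Characteristic := Sylow.characteristic_of_subsingleton P
  have hmem : ∀ x, x ∈ (P : Subgroup N) ↔ f x ∈ (P : Subgroup N) := by
    intro x
    have := hchar.fixed f
    conv_lhs => rw [← this]
    rfl
  let σ : Function.End (P : Subgroup N) := fun x => ⟨f x.1, (hmem x.1).1 x.2⟩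
  have hσ : ∀ (n : ℕ) (x : (P : Subgroup N)), ((σ ^ n) x).1 = (f ^ n) x.1 := by
    intro n
    induction n with
    | zero => intro x; rfl
    | succ n ih =>
      intro x
      rw [pow_succ, pow_succ]
      show ((σ ^ n) (σ x)).1 = (f ^ n) (f x.1)
      rw [ih]
  have hσ1 : σ ^ 11 ^ 1 = 1 := by
    funext x
    apply Subtype.ext
    rw [pow_one, hσ, hf]
    rfl
  haveI : Fintype (P : Subgroup N) := Fintype.ofFinite _
  have h := Equiv.Perm.card_fixedPoints_modEq hσ1
  have h2 : Fintype.card (P : Subgroup N) = 25 := by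
    rw [Fintype.card_eq_nat_card]
    exact hcardP
  have h3 : Fintype.card (Function.fixedPoints σ) = 1 := by
    rw [Fintype.card_eq_one_iff]
    refine ⟨⟨1, ?_⟩, ?_⟩
    · apply Subtype.ext
      exact map_one f
    · rintro ⟨x, hx⟩
      apply Subtype.ext
      apply Subtype.ext
      have h4 : f x.1 = x.1 := congrArg Subtype.val hx
      exact hfix _ h4
  rw [h2] at h
  revert h
  rw [show Fintype.card (Function.fixedPoints σ) = 1 from h3]
  decide

variable {H V : Type*} [Group H] [Finite H] [Fintype V] [MulAction H V]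

/-- An element of order 11 fixes no point of an orbit whose stabiliser has order prime to 11. -/
theorem no_fix {K W : Type*} [Group K] [Finite K] [MulAction K W] (t : K) (ht : orderOf t = 11) (a : W)
    {m n : ℕ} (hm : (orbit K a).ncard = m) (hK : Nat.card K = m * n) (hm0 : m ≠ 0) (hn : ¬ 11 ∣ n) : t • a ≠ a := by
  intro hfix
  have h1 := (stabilizer K a).card_mul_index
  rw [index_stabilizer, hm, hK, mul_comm] at h1
  have h2 : Nat.card (stabilizer K a) = n := Nat.eq_of_mul_eq_mul_left (Nat.pos_of_ne_zero hm0) h1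
  have hmem : t ∈ stabilizer K a := hfix
  have h3 : orderOf (⟨t, hmem⟩ : stabilizer K a) ∣ n := by
    rw [← h2]
    exact orderOf_dvd_natCard _
  rw [Subgroup.orderOf_mk, ht] at h3
  exact hn h3

/-- The criterion. -/
theorem simple_of_rank3 [IsPretransitive H V] [FaithfulSMul H V] (v₀ : V) (hV : Fintype.card V = 100)
    (hK : IsSimpleGroup (stabilizer H v₀)) (hKcard : Nat.card (stabilizer H v₀) = 443520)
    (A B : Set V) (hA : A.ncard = 22) (hB : B.ncard = 77)
    (hcover : ∀ v, v = v₀ ∨ v ∈ A ∨ v ∈ B) (hAB : Disjoint A B) (hA0 : v₀ ∉ A) (hB0 : v₀ ∉ B)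
    (hAi : ∀ k : stabilizer H v₀, ∀ a ∈ A, k.1 • a ∈ A) (hBi : ∀ k : stabilizer H v₀, ∀ a ∈ B, k.1 • a ∈ B)
    (hAt : ∀ a ∈ A, ∀ a' ∈ A, ∃ k : stabilizer H v₀, k.1 • a = a')
    (hBt : ∀ a ∈ B, ∀ a' ∈ B, ∃ k : stabilizer H v₀, k.1 • a = a') :
    IsSimpleGroup H := by
  classical
  -- the point stabiliser
  set K := stabilizer H v₀ with hKdef
  -- an element of order 11
  have h11 : Nat.Prime 11 := by norm_num
  haveI : Fact (Nat.Prime 11) := ⟨h11⟩
  obtain ⟨t, ht⟩ := exists_prime_orderOf_dvd_card' (G := K) 11 (by rw [hKcard]; norm_num)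
  -- it fixes only the base point
  have horb : ∀ (S : Set V), (∀ k : K, ∀ a ∈ S, k.1 • a ∈ S) → (∀ a ∈ S, ∀ a' ∈ S, ∃ k : K, k.1 • a = a') →
      ∀ a ∈ S, orbit K a = S := by
    intro S h1 h2 a ha
    ext x
    constructor
    · rintro ⟨k, rfl⟩
      exact h1 k a ha
    · intro hx
      obtain ⟨k, hk⟩ := h2 a ha x hx
      exact ⟨k, hk⟩
  have hfixA : ∀ a ∈ A, t.1 • a ≠ a := by
    intro a ha
    refine no_fix (K := K) t ht a (m := 22) (n := 20160) ?_ (by rw [hKcard]) (by norm_num) (by norm_num)
    rw [horb A hAi hAt a ha, hA]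
  have hfixB : ∀ a ∈ B, t.1 • a ≠ a := by
    intro a ha
    refine no_fix (K := K) t ht a (m := 77) (n := 5760) ?_ (by rw [hKcard]) (by norm_num) (by norm_num)
    rw [horb B hBi hBt a ha, hB]
  have hfixV : ∀ v, t.1 • v = v → v = v₀ := by
    intro v hv
    rcases hcover v with h | h | h
    · exact h
    · exact absurd hv (hfixA v h)
    · exact absurd hv (hfixB v h)
  have hnt : Nontrivial H := by
    refine ⟨⟨t.1, 1, fun h => ?_⟩⟩
    have h1 : t = 1 := Subtype.ext h
    rw [h1, orderOf_one] at ht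
    omega
  refine ⟨fun N hN => ?_⟩
  -- the orbit is a block
  have hblock : IsBlock H (orbit N v₀) := IsBlock.orbit_of_normal v₀
  have hdvd : (orbit N v₀).ncard ∣ 100 := by
    have := hblock.ncard_dvd_card ⟨v₀, mem_orbit_self v₀⟩
    rwa [Nat.card_eq_fintype_card, hV] at this
  have hinv : ∀ k : K, ∀ x ∈ orbit N v₀, k.1 • x ∈ orbit N v₀ := by
    rintro k _ ⟨n, rfl⟩
    refine ⟨⟨k.1 * n.1 * k.1⁻¹, hN.conj_mem n.1 n.2 k.1⟩, ?_⟩
    show (k.1 * n.1 * k.1⁻¹) • v₀ = k.1 • (n.1 • v₀)
    have hk : k.1⁻¹ • v₀ = v₀ := inv_smul_eq_iff.mpr k.2.symm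
    rw [mul_smul, mul_smul, hk]
  have hpart : ∀ S : Set V, S.ncard = 22 ∨ S.ncard = 77 → (∀ k : K, ∀ a ∈ S, k.1 • a ∈ S) →
      (∀ a ∈ S, ∀ a' ∈ S, ∃ k : K, k.1 • a = a') → (orbit N v₀ ∩ S).ncard = 0 ∨ (orbit N v₀ ∩ S) = S := by
    intro S _ h1 h2
    by_cases hne : (orbit N v₀ ∩ S).Nonempty
    · right
      obtain ⟨a, ha, haS⟩ := hne
      apply Set.inter_eq_right.mpr
      intro x hx
      obtain ⟨k, rfl⟩ := h2 a haS x hx
      exact hinv k a ha
    · left
      rw [Set.not_nonempty_iff_eq_empty.mp hne, Set.ncard_empty]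
  have hdecomp : orbit N v₀ = {v₀} ∪ ((orbit N v₀ ∩ A) ∪ (orbit N v₀ ∩ B)) := by
    ext x
    constructor
    · intro hx
      rcases hcover x with h | h | h
      · exact Or.inl h
      · exact Or.inr (Or.inl ⟨hx, h⟩)
      · exact Or.inr (Or.inr ⟨hx, h⟩)
    · rintro (rfl | ⟨h, -⟩ | ⟨h, -⟩)
      · exact mem_orbit_self _
      · exact h
      · exact h
  have hcard : (orbit N v₀).ncard = 1 + ((orbit N v₀ ∩ A).ncard + (orbit N v₀ ∩ B).ncard) := by
    conv_lhs => rw [hdecomp]
    rw [Set.ncard_union_eq, Set.ncard_singleton, Set.ncard_union_eq]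
    · exact hAB.mono Set.inter_subset_right Set.inter_subset_right
    · rw [Set.disjoint_singleton_left]
      rintro (⟨-, h⟩ | ⟨-, h⟩)
      · exact hA0 h
      · exact hB0 h
  have hsize : (orbit N v₀).ncard = 1 ∨ (orbit N v₀).ncard = 100 := by
    rcases hpart A (Or.inl hA) hAi hAt with h1 | h1 <;> rcases hpart B (Or.inr hB) hBi hBt with h2 | h2
    · rw [hcard, h1, h2]; left; rfl
    · exfalso
      rw [hcard, h1, h2, hB] at hdvd
      revert hdvd
      decide
    · exfalso
      rw [hcard, h1, h2, hA] at hdvd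
      revert hdvd
      decide
    · rw [hcard, h1, h2, hA, hB]; right; rfl
  rcases hsize with h1 | h100
  · left
    -- the subgroup fixes everything
    have hfixN : ∀ n ∈ N, n • v₀ = v₀ := by
      intro n hn
      have h2 : orbit N v₀ = {v₀} := by
        obtain ⟨x, hx⟩ := Set.ncard_eq_one.mp h1
        have h3 : v₀ ∈ orbit N v₀ := mem_orbit_self _
        rw [hx] at h3 ⊢
        rw [Set.mem_singleton_iff.mp h3]
      have h3 : (⟨n, hn⟩ : N) • v₀ ∈ orbit N v₀ := mem_orbit _ _
      rw [h2] at h3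
      exact h3
    rw [eq_bot_iff]
    intro n hn
    rw [Subgroup.mem_bot]
    apply FaithfulSMul.eq_of_smul_eq_smul (α := V)
    intro v
    obtain ⟨g, rfl⟩ := exists_smul_eq H v₀ v
    rw [one_smul]
    have h3 := hfixN (g⁻¹ * n * g) (by simpa using hN.conj_mem n hn g⁻¹)
    rw [mul_smul, mul_smul, inv_smul_eq_iff] at h3
    exact h3
  · have huniv : orbit N v₀ = Set.univ := by
      apply Set.eq_of_subset_of_ncard_le (Set.subset_univ _)
      rw [h100, Set.ncard_univ, Nat.card_eq_fintype_card, hV]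
    haveI : (N.subgroupOf K).Normal := Subgroup.normal_subgroupOf
    rcases hK.eq_bot_or_eq_top_of_normal (N.subgroupOf K) inferInstance with hb | ht'
    · exfalso
      have hNK : ∀ n ∈ N, n • v₀ = v₀ → n = 1 := by
        intro n hn hnv
        have h2 : (⟨n, hnv⟩ : K) ∈ N.subgroupOf K := hn
        rw [hb, Subgroup.mem_bot] at h2
        exact congrArg Subtype.val h2
      have hcardN : Nat.card N = 100 := by
        rw [← hV, ← Nat.card_eq_fintype_card]
        apply Nat.card_congr
        refine Equiv.ofBijective (fun n : N => n.1 • v₀) ⟨?_, ?_⟩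
        · intro n n' he
          have h2 : n.1⁻¹ * n'.1 = 1 := by
            apply hNK _ (N.mul_mem (N.inv_mem n.2) n'.2)
            rw [mul_smul, inv_smul_eq_iff]
            exact he.symm
          apply Subtype.ext
          exact (inv_mul_eq_one.mp h2)
        · intro v
          have h2 : v ∈ orbit N v₀ := by rw [huniv]; trivial
          obtain ⟨n, rfl⟩ := h2
          exact ⟨n, rfl⟩
      refine no_fpf_100 hcardN (MulAut.conjNormal t.1) ?_ ?_
      · intro x
        have h2 : t.1 ^ 11 = 1 := by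
          have := pow_orderOf_eq_one t
          rw [ht] at this
          exact congrArg Subtype.val this
        rw [← map_pow, h2, map_one]
        rfl
      · intro x hx
        have h2 : t.1 * x.1 * t.1⁻¹ = x.1 := by
          have := congrArg Subtype.val hx
          rwa [MulAut.conjNormal_apply] at this
        have h3 : t.1 • (x.1 • v₀) = x.1 • v₀ := by
          rw [← mul_smul]
          rw [mul_inv_eq_iff_eq_mul.mp h2, mul_smul]
          rw [show t.1 • v₀ = v₀ from t.2]
        have h4 := hNK x.1 x.2 (hfixV _ h3)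
        exact Subtype.ext h4
    · right
      rw [eq_top_iff]
      intro g _
      have h2 : g • v₀ ∈ orbit N v₀ := by rw [huniv]; trivial
      obtain ⟨n, hn⟩ := h2
      have h3 : n.1⁻¹ * g ∈ K := by
        show (n.1⁻¹ * g) • v₀ = v₀
        rw [mul_smul, inv_smul_eq_iff]
        exact hn.symm
      have h4 : (⟨_, h3⟩ : K) ∈ N.subgroupOf K := by rw [ht']; trivial
      have h5 : n.1⁻¹ * g ∈ N := h4
      have h6 := N.mul_mem n.2 h5
      simpa using h6

end Cfsg.Agent.Lib.BasicSteiner.Witt.Rank3
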