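import Cfsg.Agent.Lib.BasicSteiner.Search

/-!
# The search certificate for the Steiner systems S(4, 5, 11)
-/

set_option autoImplicit false
set_option maxRecDepth 100000

namespace Cfsg.Agent.Lib.BasicSteiner.Witt.S4511

open Cfsg.Agent.Lib.BasicSteiner.Search

/-- The blocks of the model, as masks. -/
def refList : List ℕ := [976, 1840, 1264, 1736, 1448, 872, 1368, 696, 1476, 932, 1636, 1684, 372, 1804, 236, 412, 604, 1084, 1858, 1698, 482, 1426, 626, 906, 1130, 1562, 218, 314, 710, 1318, 1110, 790, 182, 1166, 334, 558, 1921, 1377, 737, 1617, 433, 457, 1177, 793, 1577, 121, 837, 1189, 1301, 213, 565, 1101, 653, 301, 1219, 659, 339, 803, 1075, 1291, 1543, 587, 391, 171, 103, 31]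

/-- The search tree. -/
def cert : Cfsg.Agent.Lib.BasicSteiner.Search.Tree := (.newpt (.newpt (.newpt (.newpt (.forced [(15, 15)] (.newpt (.forced [(39, 39), (43, 43), (135, 135)] (.pick 75 [] (.cons 75 (.forced [(519, 519), (267, 1291), (1059, 1075), (291, 803), (275, 339), (147, 659), (195, 1219)] (.pick 45 [(557, 301, [0, 1, 2, 3, 4, 9, 10, 6, 5, 8, 7]), (1069, 301, [0, 1, 2, 5, 6, 10, 9, 4, 3, 8, 7])] (.cons 301 (.forced [(525, 653), (77, 1101), (549, 565), (85, 213), (277, 1301), (165, 1189), (325, 837), (57, 121), (553, 1577), (537, 793), (153, 1177), (201, 457), (177, 433), (593, 1617), (225, 737), (353, 1377), (897, 1921)] (.pick 46 [(1070, 558, [0, 1, 2, 5, 6, 3, 4, 7, 8, 10, 9])] (.cons 558 (.forced [(270, 334), (142, 1166), (150, 182), (278, 790), (86, 1110), (294, 1318), (198, 710), (58, 314), (90, 218), (538, 1562), (106, 1130), (394, 906), (114, 626), (402, 1426), (226, 482), (674, 1698), (834, 1858), (60, 1084), (92, 604), (156, 412), (108, 236), (780, 1804), (116, 372), (660, 1684), (612, 1636),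 (420, 932), (452, 1476), (184, 696), (344, 1368), (360, 872), (424, 1448), (712, 1736), (240, 1264), (816, 1840), (464, 976)] .leaf) .nil))) .nil))) (.cons 331 (.pick 51 [] (.cons 51 (.forced [(519, 519)] (.pick 523 [] .nil)) (.cons 307 (.pick 83 [] (.cons 83 (.forced [(519, 519)] (.pick 523 [] .nil)) (.cons 211 (.pick 45 [] (.cons 45 (.forced [(519, 519)] (.pick 523 [] .nil)) (.cons 301 (.forced [(46, 46), (519, 519)] (.pick 523 [] .nil)) .nil))) .nil))) .nil))) .nil))))))))))

theorem chk_cert : chk 11 4 5 14 3 refList cert 0 [] = true := by decide +kernel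

theorem ref_nodup : refList.Nodup := by decide +kernel

theorem ref_lt : ∀ x ∈ refList, x < 2 ^ 24 := by decide +kernel

theorem ref_card : refList.length * Nat.choose 5 4 = Nat.choose 11 4 := by decide +kernel

theorem concl {α : Type*} [DecidableEq α] [Fintype α] {B : Set (Finset α)} (hα : Fintype.card α = 11)
    (hB : Cfsg.IsSteinerSystem 4 5 B) (hI : ∀ b ∈ B, ∀ c ∈ B, b ≠ c → allowedB 14 (b ∩ c).card = true) :
    Concl B 11 refList :=
  concl_of_chk hα (by norm_num) (by norm_num) hB hI (allowed_le (by norm_num)) (by decide +kernel) ref_card ref_nodup ref_lt (tr := cert) rfl chk_cert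

end Cfsg.Agent.Lib.BasicSteiner.Witt.S4511
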