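import Mathlib
import Cfsg.Prelude.Def_Sporadic_a

/-!
# A strongly regular graph with parameters (100, 22, 0, 6) is a point-block graph

Fix a vertex `v`.  The non-neighbours of `v` give 6-subsets of the neighbours of `v`, and a second-moment count
shows that two such subsets meet in 0 or 2 points, so that they form a Steiner system S(3, 6, 22).
-/

set_option autoImplicit false

namespace Cfsg.Agent.Lib.BasicSteiner.Witt.Srg100

open Finset

variable {V : Type*} [Fintype V] {G : SimpleGraph V} [DecidableRel G.Adj] [DecidableEq V]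

local notation "N" => G.neighborFinset

theorem card_N (hG : G.IsSRGWith 100 22 0 6) (v : V) : (N v).card = 22 := hG.regular v

theorem inter_eq_common (v w : V) : N v ∩ N w = (G.commonNeighbors v w).toFinset := by
  ext a
  simp [SimpleGraph.mem_commonNeighbors]

theorem inter_adj (hG : G.IsSRGWith 100 22 0 6) {v w : V} (h : G.Adj v w) : (N v ∩ N w) = ∅ := by
  rw [← Finset.card_eq_zero, inter_eq_common, Set.toFinset_card]
  exact hG.of_adj v w h

theorem inter_nonadj (hG : G.IsSRGWith 100 22 0 6) {v w : V} (hne : v ≠ w) (h : ¬ G.Adj v w) :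
    (N v ∩ N w).card = 6 := by
  rw [inter_eq_common, Set.toFinset_card]
  exact hG.of_not_adj hne h

theorem not_adj_of_common (hG : G.IsSRGWith 100 22 0 6) {u v w : V} (h1 : G.Adj u v) (h2 : G.Adj u w) :
    ¬ G.Adj v w := by
  intro h3
  have h := inter_adj hG h3
  have : u ∈ N v ∩ N w := by
    simp only [mem_inter, SimpleGraph.mem_neighborFinset]
    exact ⟨h1.symm, h2.symm⟩
  rw [h] at this
  simp at this

/-- The non-neighbours of `v`. -/
def X (G : SimpleGraph V) [DecidableRel G.Adj] (v : V) : Finset V :=
  univ.filter fun y => y ≠ v ∧ ¬ G.Adj v y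

theorem mem_X {v y : V} : y ∈ X G v ↔ y ≠ v ∧ ¬ G.Adj v y := by
  simp [X]

theorem card_X (hG : G.IsSRGWith 100 22 0 6) (v : V) : (X G v).card = 77 := by
  have h1 : X G v = univ \ insert v (N v) := by
    ext y
    simp only [mem_X, mem_sdiff, mem_univ, true_and, mem_insert, SimpleGraph.mem_neighborFinset, not_or]
  rw [h1, card_sdiff_of_subset (subset_univ _), card_univ, hG.card, card_insert_of_notMem (by simp), card_N hG]

/-- The neighbours of `p ∈ N v` other than `v` lie in `X`. -/
theorem filter_one (hG : G.IsSRGWith 100 22 0 6) {v p : V} (hp : G.Adj v p) :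
    ((X G v).filter fun y => G.Adj p y).card = 21 := by
  have h1 : (X G v).filter (fun y => G.Adj p y) = (N p).erase v := by
    ext y
    simp only [mem_filter, mem_X, mem_erase, SimpleGraph.mem_neighborFinset]
    constructor
    · rintro ⟨⟨h2, -⟩, h3⟩
      exact ⟨h2, h3⟩
    · rintro ⟨h2, h3⟩
      exact ⟨⟨h2, not_adj_of_common hG hp.symm h3⟩, h3⟩
  rw [h1, card_erase_of_mem (by simpa using hp.symm), card_N hG]

theorem filter_two (hG : G.IsSRGWith 100 22 0 6) {v p q : V} (hp : G.Adj v p) (hq : G.Adj v q) (hpq : p ≠ q) :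
    ((X G v).filter fun y => G.Adj p y ∧ G.Adj q y).card = 5 := by
  have h1 : (X G v).filter (fun y => G.Adj p y ∧ G.Adj q y) = (N p ∩ N q).erase v := by
    ext y
    simp only [mem_filter, mem_X, mem_erase, mem_inter, SimpleGraph.mem_neighborFinset]
    constructor
    · rintro ⟨⟨h2, -⟩, h3, h4⟩
      exact ⟨h2, h3, h4⟩
    · rintro ⟨h2, h3, h4⟩
      exact ⟨⟨h2, not_adj_of_common hG hp.symm h3⟩, h3, h4⟩
  rw [h1, card_erase_of_mem (by simp [hp.symm, hq.symm]),
    inter_nonadj hG hpq (not_adj_of_common hG hp hq)]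

/-- The common neighbours of `x`, `y` and `v`. -/
def c (G : SimpleGraph V) [DecidableRel G.Adj] (v x y : V) : ℕ :=
  (G.neighborFinset v ∩ G.neighborFinset x ∩ G.neighborFinset y).card

theorem c_eq_sum (v x y : V) : (c G v x y : ℤ) = ∑ p ∈ N v ∩ N x, if G.Adj p y then 1 else 0 := by
  have h : N v ∩ N x ∩ N y = (N v ∩ N x).filter fun p => G.Adj p y := by
    ext p
    simp only [mem_inter, mem_filter, SimpleGraph.mem_neighborFinset]
    constructor
    · rintro ⟨h1, h2⟩
      exact ⟨h1, h2.symm⟩
    · rintro ⟨h1, h2⟩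
      exact ⟨h1, h2.symm⟩
  rw [c, h, card_filter]
  push_cast
  rfl

/-- The first moment. -/
theorem sum_c (hG : G.IsSRGWith 100 22 0 6) {v x : V} (hx : x ∈ X G v) :
    ∑ y ∈ (X G v).erase x, (c G v x y : ℤ) = 120 := by
  simp_rw [c_eq_sum (G := G)]
  rw [sum_comm]
  have h1 : ∀ p ∈ N v ∩ N x, ∑ y ∈ (X G v).erase x, (if G.Adj p y then (1 : ℤ) else 0) = 20 := by
    intro p hp
    simp only [mem_inter, SimpleGraph.mem_neighborFinset] at hp
    have h2 := filter_one hG hp.1
    have h3 : ((X G v).erase x).filter (fun y => G.Adj p y) = ((X G v).filter fun y => G.Adj p y).erase x := by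
      ext y
      simp only [mem_filter, mem_erase]
      tauto
    rw [← Finset.sum_filter, Finset.sum_const, h3, card_erase_of_mem (by simp [hx, hp.2.symm]), h2]
    simp
  rw [sum_congr rfl h1, sum_const, inter_nonadj hG (mem_X.mp hx).1.symm (mem_X.mp hx).2]
  simp

/-- The second moment. -/
theorem sum_c_sq (hG : G.IsSRGWith 100 22 0 6) {v x : V} (hx : x ∈ X G v) :
    ∑ y ∈ (X G v).erase x, (c G v x y : ℤ) ^ 2 = 240 := by
  simp_rw [c_eq_sum (G := G), sq, sum_mul_sum]
  rw [sum_comm]
  have hA : (N v ∩ N x).card = 6 := inter_nonadj hG (mem_X.mp hx).1.symm (mem_X.mp hx).2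
  have h1 : ∀ p ∈ N v ∩ N x, ∑ y ∈ (X G v).erase x, ∑ q ∈ N v ∩ N x,
      ((if G.Adj p y then (1 : ℤ) else 0) * (if G.Adj q y then (1 : ℤ) else 0)) = 40 := by
    intro p hp
    rw [sum_comm]
    have hp' := hp
    simp only [mem_inter, SimpleGraph.mem_neighborFinset] at hp'
    have h2 : ∀ q ∈ N v ∩ N x, ∑ y ∈ (X G v).erase x,
        ((if G.Adj p y then (1 : ℤ) else 0) * (if G.Adj q y then (1 : ℤ) else 0)) = if q = p then 20 else 4 := by
      intro q hq
      simp only [mem_inter, SimpleGraph.mem_neighborFinset] at hq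
      have h3 : ∀ y, ((if G.Adj p y then (1 : ℤ) else 0) * (if G.Adj q y then (1 : ℤ) else 0)) =
          if G.Adj p y ∧ G.Adj q y then 1 else 0 := by
        intro y
        by_cases h4 : G.Adj p y <;> by_cases h5 : G.Adj q y <;> simp [h4, h5]
      simp_rw [h3]
      rw [← Finset.sum_filter, Finset.sum_const]
      have h4 : ((X G v).erase x).filter (fun y => G.Adj p y ∧ G.Adj q y) =
          ((X G v).filter fun y => G.Adj p y ∧ G.Adj q y).erase x := by
        ext y
        simp only [mem_filter, mem_erase]
        tauto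
      rw [h4, card_erase_of_mem (by simp [hx, hp'.2.symm, hq.2.symm])]
      by_cases hqp : q = p
      · subst hqp
        have := filter_one hG hp'.1
        simp only [and_self, if_true, this]
        simp
      · rw [filter_two hG hp'.1 hq.1 (Ne.symm hqp), if_neg hqp]
        simp
    rw [sum_congr rfl h2, sum_ite, filter_eq' (N v ∩ N x) p, if_pos hp, sum_singleton, sum_const]
    have h5 : ((N v ∩ N x).filter fun q => ¬ q = p) = (N v ∩ N x).erase p := by
      ext q
      simp [and_comm]
    rw [h5, card_erase_of_mem hp, hA]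
    simp
  rw [sum_congr rfl h1, sum_const, hA]
  simp

/-- Two non-neighbours of `v` which are not adjacent have exactly two common neighbours among the neighbours of
`v`. -/
theorem c_eq_two (hG : G.IsSRGWith 100 22 0 6) {v x y : V} (hx : x ∈ X G v) (hy : y ∈ X G v) (hne : y ≠ x)
    (hxy : ¬ G.Adj x y) : c G v x y = 2 := by
  have hx' := mem_X.mp hx
  set Z := (X G v).erase x with hZ
  set Y := Z.filter fun y => ¬ G.Adj x y with hYdef
  have h0 : ∀ y ∈ Z.filter (fun y => G.Adj x y), c G v x y = 0 := by
    intro y hy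
    have h1 := (mem_filter.mp hy).2
    rw [c, card_eq_zero, eq_empty_iff_forall_notMem]
    intro p hp
    have h2 := inter_adj hG h1
    have : p ∈ N x ∩ N y := by
      simp only [mem_inter] at hp ⊢
      exact ⟨hp.1.2, hp.2⟩
    rw [h2] at this
    simp at this
  have hsplit : ∀ f : V → ℤ, (∀ y ∈ Z.filter (fun y => G.Adj x y), f y = 0) → ∑ y ∈ Z, f y = ∑ y ∈ Y, f y := by
    intro f hf
    rw [← sum_filter_add_sum_filter_not Z (fun y => G.Adj x y), sum_eq_zero hf, zero_add]
  have h1 : ∑ y ∈ Y, (c G v x y : ℤ) = 120 := by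
    rw [← hsplit _ (fun y hy => by simp [h0 y hy])]
    exact sum_c hG hx
  have h2 : ∑ y ∈ Y, (c G v x y : ℤ) ^ 2 = 240 := by
    rw [← hsplit _ (fun y hy => by simp [h0 y hy])]
    exact sum_c_sq hG hx
  have hYcard : Y.card = 60 := by
    have h3 : (Z.filter fun y => G.Adj x y) = (N x) \ (N v ∩ N x) := by
      ext y
      simp only [hZ, mem_filter, mem_erase, mem_X, mem_sdiff, mem_inter, SimpleGraph.mem_neighborFinset]
      constructor
      · rintro ⟨⟨h4, h5, h6⟩, h7⟩
        exact ⟨h7, fun h8 => h6 h8.1⟩
      · rintro ⟨h4, h5⟩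
        refine ⟨⟨?_, ?_, ?_⟩, h4⟩
        · rintro rfl
          exact G.loopless.irrefl _ h4
        · rintro rfl
          exact hx'.2 h4.symm
        · intro h8
          exact h5 ⟨h8, h4⟩
    have h4 : (Z.filter fun y => G.Adj x y).card = 16 := by
      rw [h3, card_sdiff_of_subset inter_subset_right, card_N hG, inter_nonadj hG hx'.1.symm hx'.2]
    have h5 : (Z.filter fun y => G.Adj x y).card + Y.card = Z.card :=
      card_filter_add_card_filter_not (s := Z) (fun y => G.Adj x y)
    have h6 : Z.card = 76 := by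
      rw [hZ, card_erase_of_mem hx, card_X hG]
    omega
  have hsum : ∑ y ∈ Y, ((c G v x y : ℤ) - 2) ^ 2 = 0 := by
    have : ∀ y ∈ Y, ((c G v x y : ℤ) - 2) ^ 2 = (c G v x y : ℤ) ^ 2 - 4 * (c G v x y : ℤ) + 4 := by
      intro y _
      ring
    rw [sum_congr rfl this, sum_add_distrib, sum_sub_distrib, ← mul_sum, h1, h2, sum_const, hYcard]
    simp
  have hyY : y ∈ Y := by
    simp only [hYdef, hZ, mem_filter, mem_erase]
    exact ⟨⟨hne, hy⟩, hxy⟩
  have h3 := (sum_eq_zero_iff_of_nonneg (fun y _ => sq_nonneg _)).mp hsum y hyY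
  have h4 : (c G v x y : ℤ) - 2 = 0 := by
    simpa using h3
  omega

/-! ### The design -/

/-- The neighbours of `v` as a type. -/
abbrev Pt (G : SimpleGraph V) (v : V) : Type _ := {p // G.Adj v p}

/-- The block of a vertex. -/
def blockOf (G : SimpleGraph V) [DecidableRel G.Adj] (v x : V) : Finset (Pt G v) :=
  univ.filter fun p : Pt G v => G.Adj x p.1

theorem mem_blockOf {v x : V} {p : Pt G v} : p ∈ blockOf G v x ↔ G.Adj x p.1 := by
  simp [blockOf]

theorem card_Pt (hG : G.IsSRGWith 100 22 0 6) (v : V) : Fintype.card (Pt G v) = 22 := by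
  rw [Fintype.card_subtype, ← card_N hG v, SimpleGraph.neighborFinset_eq_filter]

theorem map_inter (v : V) (s : Finset (Pt G v)) (t : Finset V) (h : ∀ p : Pt G v, p ∈ s ↔ p.1 ∈ t) :
    s.map (Function.Embedding.subtype _) = N v ∩ t := by
  ext a
  simp only [mem_map, Function.Embedding.subtype_apply, mem_inter, SimpleGraph.mem_neighborFinset, Subtype.exists,
    exists_and_right, exists_eq_right]
  constructor
  · rintro ⟨ha, hs⟩
    exact ⟨ha, (h _).mp hs⟩
  · rintro ⟨ha, ht⟩
    exact ⟨ha, (h ⟨a, ha⟩).mpr ht⟩

theorem card_blockOf (hG : G.IsSRGWith 100 22 0 6) {v x : V} (hx : x ∈ X G v) : (blockOf G v x).card = 6 := by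
  rw [← card_map (Function.Embedding.subtype _),
    map_inter v _ (N x) (fun p => by simp [mem_blockOf])]
  exact inter_nonadj hG (mem_X.mp hx).1.symm (mem_X.mp hx).2

theorem card_blockOf_inter {v x y : V} : (blockOf G v x ∩ blockOf G v y).card = c G v x y := by
  rw [← card_map (Function.Embedding.subtype _),
    map_inter v _ (N x ∩ N y) (fun p => by simp [mem_blockOf]), c, inter_assoc]

theorem c_adj (hG : G.IsSRGWith 100 22 0 6) {v x y : V} (h : G.Adj x y) : c G v x y = 0 := by
  rw [c, inter_assoc, inter_adj hG h]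
  simp

theorem c_le_two (hG : G.IsSRGWith 100 22 0 6) {v x y : V} (hx : x ∈ X G v) (hy : y ∈ X G v) (hne : y ≠ x) :
    c G v x y ≤ 2 := by
  by_cases h : G.Adj x y
  · rw [c_adj hG h]
    omega
  · rw [c_eq_two hG hx hy hne h]

theorem blockOf_inj (hG : G.IsSRGWith 100 22 0 6) {v x y : V} (hx : x ∈ X G v) (hy : y ∈ X G v)
    (h : blockOf G v x = blockOf G v y) : x = y := by
  by_contra hne
  have h1 := c_le_two hG hx hy (Ne.symm hne)
  rw [← card_blockOf_inter, ← h, inter_self, card_blockOf hG hx] at h1
  omega

/-- The design of the non-neighbours of `v`. -/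
def des (G : SimpleGraph V) [DecidableRel G.Adj] (v : V) : Set (Finset (Pt G v)) :=
  {b | ∃ x ∈ X G v, b = blockOf G v x}

theorem des_steiner (hG : G.IsSRGWith 100 22 0 6) (v : V) : Cfsg.IsSteinerSystem 3 6 (des G v) := by
  constructor
  · rintro _ ⟨x, hx, rfl⟩
    exact card_blockOf hG hx
  · -- pairwise disjoint families of triples
    have hdis : ((X G v : Finset V) : Set V).PairwiseDisjoint fun x => powersetCard 3 (blockOf G v x) := by
      intro x hx y hy hne
      rw [Function.onFun, Finset.disjoint_left]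
      intro s hs hs'
      rw [mem_powersetCard] at hs hs'
      have h1 : s ⊆ blockOf G v x ∩ blockOf G v y := subset_inter hs.1 hs'.1
      have h2 := card_le_card h1
      rw [hs.2, card_blockOf_inter] at h2
      have := c_le_two hG (mem_coe.mp hx) (mem_coe.mp hy) (Ne.symm hne)
      omega
    have hU : (X G v).biUnion (fun x => powersetCard 3 (blockOf G v x)) = powersetCard 3 univ := by
      apply eq_of_subset_of_card_le
      · intro s hs
        obtain ⟨x, -, hs⟩ := mem_biUnion.mp hs
        rw [mem_powersetCard] at hs ⊢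
        exact ⟨subset_univ _, hs.2⟩
      · rw [card_biUnion hdis, card_powersetCard, card_univ, card_Pt hG, sum_congr rfl
          (fun x hx => by rw [card_powersetCard, card_blockOf hG hx]), sum_const, card_X hG]
        decide
    intro s hs
    have hmem : s ∈ powersetCard 3 (univ : Finset (Pt G v)) := mem_powersetCard.mpr ⟨subset_univ _, hs⟩
    rw [← hU] at hmem
    obtain ⟨x, hx, hsx⟩ := mem_biUnion.mp hmem
    refine ⟨blockOf G v x, ⟨⟨x, hx, rfl⟩, (mem_powersetCard.mp hsx).1⟩, ?_⟩
    rintro _ ⟨⟨y, hy, rfl⟩, hsy⟩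
    by_contra hne
    have hxy : y ≠ x := fun h => hne (by rw [h])
    have h1 : s ⊆ blockOf G v x ∩ blockOf G v y := subset_inter (mem_powersetCard.mp hsx).1 hsy
    have h2 := card_le_card h1
    rw [hs, card_blockOf_inter] at h2
    have := c_le_two hG hx hy hxy
    omega

/-- The vertex of a block. -/
noncomputable def vert {v : V} (b : des G v) : V := Classical.choose b.2

theorem vert_mem {v : V} (b : des G v) : vert b ∈ X G v := (Classical.choose_spec b.2).1

theorem block_vert {v : V} (b : des G v) : blockOf G v (vert b) = b.1 := (Classical.choose_spec b.2).2.symm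

/-- The vertex of a point of the point-block graph. -/
noncomputable def toV (v : V) : Option (Pt G v ⊕ des G v) → V
  | none => v
  | some (Sum.inl p) => p.1
  | some (Sum.inr b) => vert b

theorem toV_bij (hG : G.IsSRGWith 100 22 0 6) (v : V) : Function.Bijective (toV (G := G) v) := by
  constructor
  · rintro (_ | p | b) (_ | q | c) h
    · rfl
    · exact absurd q.2 (by rw [← show v = q.1 from h]; exact G.loopless.irrefl _)
    · exact absurd (vert_mem c) (by rw [← show v = vert c from h]; simp [mem_X])
    · exact absurd p.2 (by rw [show p.1 = v from h]; exact G.loopless.irrefl _)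
    · exact congrArg (fun z => some (Sum.inl z)) (Subtype.ext h)
    · have h1 := (mem_X.mp (vert_mem c)).2
      exact absurd p.2 (by rw [show p.1 = vert c from h]; exact h1)
    · exact absurd (vert_mem b) (by rw [show vert b = v from h]; simp [mem_X])
    · have h1 := (mem_X.mp (vert_mem b)).2
      exact absurd q.2 (by rw [← show vert b = q.1 from h]; exact h1)
    · have h1 : vert b = vert c := h
      have h2 : b = c := by
        apply Subtype.ext
        rw [← block_vert b, ← block_vert c, h1]
      rw [h2]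
  · intro w
    by_cases h1 : w = v
    · exact ⟨none, h1.symm⟩
    · by_cases h2 : G.Adj v w
      · exact ⟨some (Sum.inl ⟨w, h2⟩), rfl⟩
      · have hw : w ∈ X G v := mem_X.mpr ⟨h1, h2⟩
        refine ⟨some (Sum.inr ⟨blockOf G v w, ⟨w, hw, rfl⟩⟩), ?_⟩
        exact blockOf_inj hG (vert_mem _) hw (block_vert _)

/-- A graph with parameters (100, 22, 0, 6) is a point-block graph. -/
noncomputable def isoPB (hG : G.IsSRGWith 100 22 0 6) (v : V) : Cfsg.pointBlockGraph (des G v) ≃g G where
  toEquiv := Equiv.ofBijective _ (toV_bij hG v)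
  map_rel_iff' := by
    intro a b
    simp only [Equiv.ofBijective_apply, Cfsg.pointBlockGraph, SimpleGraph.fromRel_adj]
    rcases a with _ | p | a' <;> rcases b with _ | q | b'
    · simp [toV]
    · simp [toV, Cfsg.pointBlockRel, q.2]
    · simp [toV, Cfsg.pointBlockRel, (mem_X.mp (vert_mem b')).2]
    · simp [toV, Cfsg.pointBlockRel, p.2.symm]
    · simp only [toV, Cfsg.pointBlockRel, or_self, and_false, iff_false]
      exact not_adj_of_common hG p.2 q.2
    · simp only [toV, Cfsg.pointBlockRel, or_false]
      have h1 : p ∈ b'.1 ↔ G.Adj p.1 (vert b') := by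
        rw [← block_vert b', mem_blockOf, G.adj_comm]
      rw [h1]
      simp
    · simp only [toV, Cfsg.pointBlockRel, or_self, and_false, iff_false]
      exact fun h => (mem_X.mp (vert_mem a')).2 h.symm
    · simp only [toV, Cfsg.pointBlockRel, false_or]
      have h1 : q ∈ a'.1 ↔ G.Adj (vert a') q.1 := by
        rw [← block_vert a', mem_blockOf]
      rw [h1]
      simp
    · simp only [toV, Cfsg.pointBlockRel]
      have hdisj : Disjoint b'.1 a'.1 ↔ Disjoint a'.1 b'.1 := disjoint_comm
      rw [hdisj, or_self]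
      have hx := vert_mem a'
      have hy := vert_mem b'
      constructor
      · intro h
        refine ⟨?_, ?_⟩
        · intro he
          have h2 : a' = b' := by
            simpa using he
          rw [h2] at h
          exact G.loopless.irrefl _ h
        · rw [← block_vert a', ← block_vert b', Finset.disjoint_iff_inter_eq_empty, ← card_eq_zero,
            card_blockOf_inter, c_adj hG h]
      · rintro ⟨hne, hd⟩
        by_contra hna
        have hxy : vert b' ≠ vert a' := by
          intro h2
          apply hne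
          have h3 : a' = b' := by
            apply Subtype.ext
            rw [← block_vert a', ← block_vert b', h2]
          rw [h3]
        have h2 := c_eq_two hG hx hy hxy hna
        rw [← card_blockOf_inter, block_vert, block_vert, Finset.disjoint_iff_inter_eq_empty.mp hd] at h2
        simp at h2

/-- An isomorphism of set systems gives an isomorphism of the point-block graphs. -/
theorem pb_iso {α β : Type*} [DecidableEq α] [DecidableEq β] {B : Set (Finset α)} {B' : Set (Finset β)}
    (h : Cfsg.SetSystemIso B B') : Nonempty (Cfsg.pointBlockGraph B ≃g Cfsg.pointBlockGraph B') := by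
  obtain ⟨e, rfl⟩ := h
  have hinj : Function.Injective (fun b : Finset α => b.image e) := Finset.image_injective e.injective
  let eB : B ≃ (fun b : Finset α => b.image e) '' B := Equiv.Set.image _ B hinj
  refine ⟨⟨Equiv.optionCongr (Equiv.sumCongr e eB), ?_⟩⟩
  intro a b
  simp only [Cfsg.pointBlockGraph, SimpleGraph.fromRel_adj, ne_eq, EmbeddingLike.apply_eq_iff_eq]
  have key : ∀ a b, Cfsg.pointBlockRel _ (Equiv.optionCongr (Equiv.sumCongr e eB) a)
      (Equiv.optionCongr (Equiv.sumCongr e eB) b) ↔ Cfsg.pointBlockRel B a b := by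
    rintro (_ | p | a') (_ | q | b') <;>
      simp only [Equiv.optionCongr_apply, Option.map_none, Option.map_some, Equiv.sumCongr_apply, Sum.map_inl,
        Sum.map_inr, Cfsg.pointBlockRel]
    · show (e p ∈ (eB b').1) ↔ _
      have : (eB b').1 = b'.1.image e := rfl
      rw [this]
      exact Function.Injective.mem_finset_image e.injective
    · show Disjoint (eB a').1 (eB b').1 ↔ _
      have h1 : (eB a').1 = a'.1.image e := rfl
      have h2 : (eB b').1 = b'.1.image e := rfl
      rw [h1, h2]
      exact Finset.disjoint_image e.injective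
  rw [key, key]

/-- Two graphs with parameters (100, 22, 0, 6) over isomorphic designs are isomorphic. -/
theorem iso_of_des {W : Type*} [Fintype W] {H : SimpleGraph W} [DecidableRel H.Adj] [DecidableEq W]
    (hG : G.IsSRGWith 100 22 0 6) (hH : H.IsSRGWith 100 22 0 6) (v : V) (w : W)
    (h : Cfsg.SetSystemIso (des G v) (des H w)) : Nonempty (G ≃g H) := by
  obtain ⟨f⟩ := pb_iso h
  exact ⟨(isoPB hG v).symm.trans (f.trans (isoPB hH w))⟩

end Cfsg.Agent.Lib.BasicSteiner.Witt.Srg100
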