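import Mathlib
import Cfsg.Prelude.Def_Sporadic_a
import Cfsg.Prelude.Def_Sporadic
import Cfsg.Agent.Lib.BasicSteiner.Witt.Aut
import Cfsg.Agent.S0351
import Cfsg.Agent.S0363

/-!
# The derived designs of the octads and the stabilisers in `M24`

Restriction to the points where a predicate holds: the stabiliser of one point in `M24` is the
automorphism group of the derived design.
-/

set_option autoImplicit false

namespace Cfsg.Agent.Lib.BasicSteiner.WittStab

open Cfsg Cfsg.Agent.Lib.Sporadic.GolayCore Cfsg.Agent.Lib.Sporadic.M24Tbl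
open Cfsg.Agent.Lib.Sporadic.M24Chain Cfsg.Agent.Lib.Sporadic.M24Basic
open Cfsg.Agent.Lib.BasicSteiner.WittAut
open scoped Pointwise

section Generic

variable {α : Type*} [DecidableEq α] {P : α → Prop} [DecidablePred P]

theorem subtype_smul (g : Equiv.Perm α) (hg : ∀ x, P (g x) ↔ P x) (b : Finset α) :
    (g • b).subtype P = (g.subtypePerm hg) • b.subtype P := by
  ext ⟨a, ha⟩
  simp only [Finset.mem_subtype, Finset.mem_smul_finset, Equiv.Perm.smul_def, Subtype.exists]
  constructor
  · rintro ⟨c, hc, rfl⟩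
    exact ⟨c, (hg c).1 ha, by simpa using hc, rfl⟩
  · rintro ⟨c, hc, hc', h⟩
    have := congrArg Subtype.val h
    simp only [Equiv.Perm.subtypePerm_apply] at this
    exact ⟨c, by simpa using hc', this⟩

theorem smul_eq_of_subtype (g : Equiv.Perm α) (hg : ∀ x, P (g x) ↔ P x) (o c : Finset α)
    (h1 : c.subtype P = (g.subtypePerm hg) • o.subtype P)
    (h2 : ∀ a, ¬ P a → (a ∈ c ↔ g⁻¹ a ∈ o)) : g • o = c := by
  rw [← subtype_smul] at h1
  ext a
  by_cases ha : P a
  · have h3 : ∀ s : Finset α, (⟨a, ha⟩ : {a // P a}) ∈ s.subtype P ↔ a ∈ s := by simp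
    rw [← h3, ← h3 c, h1]
  · rw [h2 a ha, Finset.mem_smul_finset]
    constructor
    · rintro ⟨x, hx, rfl⟩
      simpa using hx
    · intro hc
      exact ⟨_, hc, by simp⟩

theorem aut_of_subset [Fintype α] {B : Set (Finset α)} {g : Equiv.Perm α}
    (h : ∀ b ∈ B, g • b ∈ B) : g ∈ setSystemAut B := by
  rw [setSystemAut, MulAction.mem_stabilizer_iff]
  have hsub : g • B ⊆ B := by
    rintro _ ⟨s, hs, rfl⟩
    exact h s hs
  apply Set.eq_of_subset_of_ncard_le hsub
  rw [Set.ncard_smul_set]

end Generic

/-- Images of spanning octads determine membership in `M24`. -/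
theorem mem_M24_of_span {g : Equiv.Perm GolayPt} {L : List ℕ}
    (hL : ∀ b ∈ basisList, b ∈ spanList L)
    (h : ∀ m ∈ L, g • ofMask m ∈ octads) : g ∈ M24 := by
  have key : ∀ (bs : List ℕ), (∀ m ∈ bs, (fun p => wordOf m (g⁻¹ p)) ∈ golayCode) →
      ∀ x ∈ spanList bs, (fun p => wordOf x (g⁻¹ p)) ∈ golayCode := by
    intro bs
    induction bs with
    | nil =>
      intro _ x hx
      simp only [spanList, List.mem_singleton] at hx
      subst hx
      have : (fun p => wordOf 0 (g⁻¹ p)) = 0 := by
        funext p; simp [wordOf_zero]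
      rw [this]; exact zero_mem _
    | cons b bs ih =>
      intro hb x hx
      have hih := ih (fun m hm => hb m (List.mem_cons_of_mem _ hm))
      rcases mem_spanList_cons.1 hx with h1 | ⟨r, hr, rfl⟩
      · exact hih x h1
      · have : (fun p => wordOf (r ^^^ b) (g⁻¹ p)) =
            (fun p => wordOf r (g⁻¹ p)) + (fun p => wordOf b (g⁻¹ p)) := by
          funext p
          simp [wordOf_xor]
        rw [this]
        exact add_mem (hih r hr) (hb b List.mem_cons_self)
  apply mem_M24_of_basis
  intro b hb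
  exact key L (fun m hm => word_mem_of_octad (h m hm)) b (hL b hb)

/-! ### One point -/

/-- The derived design at the extra point. -/
abbrev Der : Set (Finset {a : GolayPt // a ≠ none}) :=
  {b' | ∃ b ∈ octads, none ∈ b ∧ b' = Finset.subtype (fun a => a ≠ none) b}

theorem der_steiner : IsSteinerSystem 4 7 Der :=
  Cfsg.Agent.S0351.result Cfsg.Agent.S0363.result none

/-- Twelve octads through the extra point. -/
def L1 : List ℕ :=
  [8391797, 8394986, 8398155, 8407702, 8421811, 8455014, 8521420, 8654232, 8919856, 9440193,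
    10486557, 12584506]

theorem L1_octad : ∀ m ∈ L1, isOctad m = true := by decide +kernel

theorem L1_bit : ∀ m ∈ L1, m.testBit 23 = true := by decide +kernel

theorem L1_span : ∀ b ∈ basisList, b ∈ spanList L1 := by decide +kernel

theorem idx_none : idx (none : GolayPt) = 23 := rfl

theorem fix_iff {g : Equiv.Perm GolayPt} (hn : g none = none) (x : GolayPt) :
    g x ≠ none ↔ x ≠ none := by
  constructor
  · rintro h rfl
    exact h hn
  · intro h h'
    exact h (g.injective (h'.trans hn.symm))

theorem restr_mem {g : Equiv.Perm GolayPt} (hg : g ∈ M24) (hn : g none = none) :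
    g.subtypePerm (fix_iff hn) ∈ setSystemAut Der := by
  apply aut_of_subset
  rintro _ ⟨b, hb, hnb, rfl⟩
  refine ⟨g • b, smul_mem_octads hg hb, ?_, ?_⟩
  · rw [Finset.mem_smul_finset]
    exact ⟨none, hnb, hn⟩
  · rw [subtype_smul g (fix_iff hn)]

theorem ext_mem {h : Equiv.Perm {a : GolayPt // a ≠ none}} (hh : h ∈ setSystemAut Der) :
    Equiv.Perm.ofSubtype h ∈ M24 := by
  apply mem_M24_of_span L1_span
  intro m hm
  have hO := isOctad_ofMask (L1_octad m hm)
  have hN : none ∈ ofMask m := by
    rw [mem_ofMask]; exact L1_bit m hm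
  have hS : h • Finset.subtype (fun a => a ≠ none) (ofMask m) ∈ Der := by
    have h0 : h • Der = Der := MulAction.mem_stabilizer_iff.1 hh
    rw [← h0]
    exact Set.smul_mem_smul_set ⟨_, hO, hN, rfl⟩
  obtain ⟨c, hc, hnc, he⟩ := hS
  have hf : Equiv.Perm.ofSubtype h • ofMask m = c := by
    refine smul_eq_of_subtype (P := fun a => a ≠ none) _
      (Equiv.Perm.ofSubtype_apply_mem_iff_mem h) _ _ ?_ ?_
    · rw [Equiv.Perm.subtypePerm_ofSubtype]
      exact he.symm
    · intro a ha
      have ha' : a = none := by simpa using ha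
      subst ha'
      have : (Equiv.Perm.ofSubtype h)⁻¹ none = none := by
        rw [Equiv.Perm.inv_eq_iff_eq]
        exact (Equiv.Perm.ofSubtype_apply_of_not_mem h (by simp)).symm
      rw [this]
      exact ⟨fun _ => hN, fun _ => hnc⟩
  rw [hf]
  exact hc

theorem ofSubtype_none (h : Equiv.Perm {a : GolayPt // a ≠ none}) :
    Equiv.Perm.ofSubtype h none = none :=
  Equiv.Perm.ofSubtype_apply_of_not_mem h (by simp)

/-- The stabiliser of the extra point is the group of the derived design. -/
noncomputable def stabEquiv : MulAction.stabilizer M24 (none : GolayPt) ≃* setSystemAut Der where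
  toFun g := ⟨(g.1.1).subtypePerm (fix_iff g.2), restr_mem g.1.2 g.2⟩
  invFun h := ⟨⟨Equiv.Perm.ofSubtype h.1, ext_mem h.2⟩, ofSubtype_none h.1⟩
  left_inv g := by
    apply Subtype.ext; apply Subtype.ext
    ext1 a
    show Equiv.Perm.ofSubtype ((g.1.1).subtypePerm (fix_iff g.2)) a = g.1.1 a
    by_cases ha : a = none
    · subst ha
      rw [ofSubtype_none]
      exact g.2.symm
    · exact Equiv.Perm.ofSubtype_subtypePerm_of_mem _ ha
  right_inv h := by
    apply Subtype.ext
    exact Equiv.Perm.subtypePerm_ofSubtype h.1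
  map_mul' g g' := by
    apply Subtype.ext
    ext a
    rfl

theorem der_fourTrans :
    MulAction.IsMultiplyPretransitive (setSystemAut Der) {a : GolayPt // a ≠ none} 4 := by
  refine ⟨fun x y => ?_⟩
  have key : ∀ z : Fin 4 ↪ {a : GolayPt // a ≠ none},
      Function.Injective (Fin.cons none (fun i => (z i).1) : Fin 5 → GolayPt) := by
    intro z
    rw [Fin.cons_injective_iff]
    refine ⟨?_, fun i j hij => z.injective (Subtype.ext hij)⟩
    rintro ⟨i, hi⟩
    exact (z i).2 hi
  have := m24_fiveTrans
  obtain ⟨g, hg⟩ := MulAction.exists_smul_eq M24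
    (⟨_, key x⟩ : Fin 5 ↪ GolayPt) (⟨_, key y⟩ : Fin 5 ↪ GolayPt)
  have hg' : ∀ i, g.1 ((Fin.cons none (fun i => (x i).1) : Fin 5 → GolayPt) i) =
      (Fin.cons none (fun i => (y i).1) : Fin 5 → GolayPt) i := by
    intro i
    exact congrArg (fun z : Fin 5 ↪ GolayPt => z i) hg
  have hn : g.1 none = none := by simpa using hg' 0
  refine ⟨⟨g.1.subtypePerm (fix_iff hn), restr_mem g.2 hn⟩, ?_⟩
  apply Function.Embedding.ext
  intro i
  have := hg' i.succ
  simp only [Fin.cons_succ] at this
  exact Subtype.ext this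

end Cfsg.Agent.Lib.BasicSteiner.WittStab
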