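import Mathlib
import Cfsg.Prelude.Def_Sporadic_a
import Cfsg.Prelude.Def_Sporadic
import Cfsg.Agent.Lib.BasicSteiner.Witt.Stab
import Cfsg.Agent.Lib.Compute.GolayDual
import Cfsg.Agent.S0378
import Cfsg.Agent.S0379

/-!
# The design on 22 points

The twice-derived design of the octads: its automorphisms extend to `M24` by the identity or
by the transposition on the two removed points.
-/

set_option autoImplicit false

namespace Cfsg.Agent.Lib.BasicSteiner.WittStab2

open Cfsg Cfsg.Agent.Lib.Sporadic.GolayCore Cfsg.Agent.Lib.Sporadic.M24Tbl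
open Cfsg.Agent.Lib.Sporadic.M24Chain Cfsg.Agent.Lib.Sporadic.M24Basic
open Cfsg.Agent.Lib.BasicSteiner.WittAut Cfsg.Agent.Lib.BasicSteiner.WittStab
open scoped Pointwise

/-- The second removed point. -/
abbrev q22 : GolayPt := some 22

/-- The 22 remaining points. -/
abbrev P2 (a : GolayPt) : Prop := a ≠ none ∧ a ≠ q22

abbrev Om2 : Type := {a : GolayPt // P2 a}

theorem card_Om2 : Fintype.card Om2 = 22 := by decide

/-- The hexads: octads through both points, with the two points removed. -/
abbrev Hex : Set (Finset Om2) :=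
  {b' | ∃ b ∈ octads, none ∈ b ∧ q22 ∈ b ∧ b' = Finset.subtype P2 b}

theorem hex_steiner : IsSteinerSystem 3 6 Hex := by
  have hS := Cfsg.Agent.S0363.result
  constructor
  · rintro _ ⟨b, hb, h1, h2, rfl⟩
    rw [Finset.card_subtype]
    have hc : b.card = 8 := hS.1 b hb
    have h3 : Finset.filter P2 b = b \ {none, q22} := by
      ext a
      simp only [Finset.mem_filter, Finset.mem_sdiff, Finset.mem_insert, Finset.mem_singleton]
      tauto
    rw [h3, Finset.card_sdiff_of_subset, hc]
    · simp
    · intro a ha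
      simp only [Finset.mem_insert, Finset.mem_singleton] at ha
      rcases ha with rfl | rfl <;> assumption
  · intro s hs
    set S : Finset GolayPt := insert none (insert q22 (s.map (Function.Embedding.subtype P2))) with hSdef
    have hScard : S.card = 5 := by
      rw [hSdef, Finset.card_insert_of_notMem, Finset.card_insert_of_notMem, Finset.card_map, hs]
      · simp only [Finset.mem_map, Function.Embedding.subtype_apply, not_exists, not_and]
        rintro ⟨a, ha⟩ _ h
        exact ha.2 h
      · simp only [Finset.mem_insert, Finset.mem_map, Function.Embedding.subtype_apply, not_or,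
          not_exists, not_and]
        refine ⟨by simp, ?_⟩
        rintro ⟨a, ha⟩ _ h
        exact ha.1 h
    obtain ⟨b, ⟨hb, hbS⟩, hu⟩ := hS.2 S hScard
    have hn : none ∈ b := hbS (by simp [hSdef])
    have hq : q22 ∈ b := hbS (by simp [hSdef])
    refine ⟨Finset.subtype P2 b, ⟨⟨b, hb, hn, hq, rfl⟩, ?_⟩, ?_⟩
    · intro a ha
      rw [Finset.mem_subtype]
      exact hbS (by
        simp only [hSdef, Finset.mem_insert, Finset.mem_map, Function.Embedding.subtype_apply]
        exact Or.inr (Or.inr ⟨a, ha, rfl⟩))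
    · rintro _ ⟨⟨c, hc, hcn, hcq, rfl⟩, hsc⟩
      have : c = b := by
        apply hu
        refine ⟨hc, ?_⟩
        intro x hx
        simp only [hSdef, Finset.mem_insert, Finset.mem_map, Function.Embedding.subtype_apply] at hx
        rcases hx with rfl | rfl | ⟨a, ha, rfl⟩
        · exact hcn
        · exact hcq
        · have := hsc ha
          rwa [Finset.mem_subtype] at this
      rw [this]

/-- Octads through both points spanning the subcode. -/
def L2 : List ℕ :=
  [12584506, 12587685, 12594948, 12599513, 12624578, 12650793, 12717187, 12849992, 13108704,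
    13631886, 14682450]

/-- An octad through the extra point, missing the second. -/
def m0 : ℕ := 8391797

theorem L2_octad : ∀ m ∈ L2, isOctad m = true := by decide +kernel

theorem L2_bit : ∀ m ∈ L2, m.testBit 23 = true ∧ m.testBit 22 = true := by decide +kernel

theorem m0_octad : isOctad m0 = true := by decide +kernel

theorem L_span : ∀ b ∈ basisList, b ∈ spanList (m0 :: L2) := by decide +kernel

theorem idx_q22 : idx q22 = 22 := rfl

theorem m0_none : none ∈ ofMask m0 := by
  rw [mem_ofMask]; decide

theorem m0_q : q22 ∉ ofMask m0 := by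
  rw [mem_ofMask]; decide

theorem m0_card : (ofMask m0).card = 8 := by
  have := Cfsg.Agent.S0363.result.1 _ (isOctad_ofMask m0_octad)
  exact this

/-- A word orthogonal to a spanning set lies in the code. -/
theorem mem_code_of_perp {L : List ℕ} (hL : ∀ b ∈ basisList, b ∈ spanList L)
    {v : GolayPt → ZMod 2} (h : ∀ m ∈ L, ∑ p, wordOf m p * v p = 0) : v ∈ golayCode := by
  have key : ∀ (bs : List ℕ), (∀ m ∈ bs, ∑ p, wordOf m p * v p = 0) →
      ∀ x ∈ spanList bs, ∑ p, wordOf x p * v p = 0 := by
    intro bs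
    induction bs with
    | nil =>
      intro _ x hx
      simp only [spanList, List.mem_singleton] at hx
      subst hx
      simp [wordOf_zero]
    | cons b bs ih =>
      intro hb x hx
      have hih := ih (fun m hm => hb m (List.mem_cons_of_mem _ hm))
      rcases mem_spanList_cons.1 hx with h1 | ⟨r, hr, rfl⟩
      · exact hih x h1
      · simp only [wordOf_xor, Pi.add_apply, add_mul]
        rw [Finset.sum_add_distrib, hih r hr, hb b List.mem_cons_self, add_zero]
  apply Cfsg.Agent.Lib.Compute.GolayDual.golay_perp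
  intro w hw
  rw [golayCode_eq_span] at hw
  induction hw using Submodule.span_induction with
  | mem x hx =>
    obtain ⟨b, hb, rfl⟩ := hx
    exact key L h b (hL b hb)
  | zero => simp
  | add x y _ _ hx hy =>
    simp only [Pi.add_apply, add_mul]
    rw [Finset.sum_add_distrib, hx, hy, add_zero]
  | smul c x _ hx =>
    simp only [Pi.smul_apply, smul_eq_mul]
    have : ∀ p, c * x p * v p = c * (x p * v p) := fun p => by ring
    simp_rw [this]
    rw [← Finset.mul_sum, hx, mul_zero]

theorem octad_of_word {g : Equiv.Perm GolayPt} {m : ℕ} (hcard : (ofMask m).card = 8)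
    (h : (fun p => wordOf m (g⁻¹ p)) ∈ golayCode) : g • ofMask m ∈ octads := by
  refine ⟨⟨_, h, ?_⟩, ?_⟩
  · ext p
    have hmem : ∀ (v : GolayPt → ZMod 2) (x : GolayPt), x ∈ support₂ v ↔ v x ≠ 0 := by
      intro v x; simp [support₂]
    rw [hmem, Finset.mem_smul_finset]
    simp only [wordOf, mem_ofMask]
    constructor
    · intro h1
      refine ⟨g⁻¹ p, ?_, by simp⟩
      by_contra h2
      rw [if_neg h2] at h1
      exact h1 rfl
    · rintro ⟨x, hx, rfl⟩
      simp [hx]
  · rw [Finset.card_smul_finset, hcard]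

theorem hexad_ext {h : Equiv.Perm Om2} (hh : h ∈ setSystemAut Hex) {m : ℕ} (hm : m ∈ L2) :
    Equiv.Perm.ofSubtype h • ofMask m ∈ octads := by
  have hO := isOctad_ofMask (L2_octad m hm)
  have hN : none ∈ ofMask m := by
    rw [mem_ofMask]; exact (L2_bit m hm).1
  have hQ : q22 ∈ ofMask m := by
    rw [mem_ofMask]; exact (L2_bit m hm).2
  have hS : h • Finset.subtype P2 (ofMask m) ∈ Hex := by
    have h0 : h • Hex = Hex := MulAction.mem_stabilizer_iff.1 hh
    rw [← h0]
    exact Set.smul_mem_smul_set ⟨_, hO, hN, hQ, rfl⟩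
  obtain ⟨c, hc, hnc, hqc, he⟩ := hS
  have hf : Equiv.Perm.ofSubtype h • ofMask m = c := by
    refine smul_eq_of_subtype (P := P2) _
      (Equiv.Perm.ofSubtype_apply_mem_iff_mem h) _ _ ?_ ?_
    · rw [Equiv.Perm.subtypePerm_ofSubtype]
      exact he.symm
    · intro a ha
      have h5 : (Equiv.Perm.ofSubtype h)⁻¹ a = a := by
        rw [Equiv.Perm.inv_eq_iff_eq]
        exact (Equiv.Perm.ofSubtype_apply_of_not_mem h ha).symm
      rw [h5]
      have : a = none ∨ a = q22 := by
        by_contra hh5
        push Not at hh5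
        exact ha hh5
      rcases this with rfl | rfl
      · exact ⟨fun _ => hN, fun _ => hnc⟩
      · exact ⟨fun _ => hQ, fun _ => hqc⟩
  rw [hf]
  exact hc

/-- The transposition of the two removed points. -/
abbrev tau : Equiv.Perm GolayPt := Equiv.swap none q22

theorem tau_not_mem : tau ∉ M24 := by
  intro h
  have h1 : tau • ofMask m0 ∈ octads := smul_mem_octads h (isOctad_ofMask m0_octad)
  have h2 := word_mem_of_octad h1
  have h3 : wordOf m0 ∈ golayCode := wordOf_codeList_mem (by
    have := isOctad_mem m0_octad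
    exact (List.mem_filter.1 this).1)
  have h4 := Cfsg.Agent.Lib.Compute.GolayDual.golay_orth _ h3 _ h2
  revert h4
  decide +kernel

theorem tau_smul_L2 {m : ℕ} (hm : m ∈ L2) : tau • ofMask m = ofMask m := by
  have hN : none ∈ ofMask m := by
    rw [mem_ofMask]; exact (L2_bit m hm).1
  have hQ : q22 ∈ ofMask m := by
    rw [mem_ofMask]; exact (L2_bit m hm).2
  ext a
  rw [Finset.mem_smul_finset]
  constructor
  · rintro ⟨x, hx, rfl⟩
    by_cases h1 : x = none
    · subst h1; simpa [tau] using hQ
    · by_cases h2 : x = q22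
      · subst h2; simpa [tau] using hN
      · show Equiv.swap none q22 x ∈ _
        rwa [Equiv.swap_apply_of_ne_of_ne h1 h2]
  · intro ha
    by_cases h1 : a = none
    · subst h1; exact ⟨q22, hQ, by simp⟩
    · by_cases h2 : a = q22
      · subst h2; exact ⟨none, hN, by simp⟩
      · exact ⟨a, ha, Equiv.swap_apply_of_ne_of_ne h1 h2⟩

theorem ofSubtype_fix (h : Equiv.Perm Om2) {a : GolayPt} (ha : ¬ P2 a) :
    Equiv.Perm.ofSubtype h a = a :=
  Equiv.Perm.ofSubtype_apply_of_not_mem h ha

/-- The extension theorem. -/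
theorem extension {h : Equiv.Perm Om2} (hh : h ∈ setSystemAut Hex) :
    Equiv.Perm.ofSubtype h ∈ M24 ∨ Equiv.Perm.ofSubtype h * tau ∈ M24 := by
  set g := Equiv.Perm.ofSubtype h with hg
  set v : GolayPt → ZMod 2 := fun p => wordOf m0 (g⁻¹ p) with hv
  have hm0 : wordOf m0 ∈ golayCode := wordOf_codeList_mem (by
    have := isOctad_mem m0_octad
    exact (List.mem_filter.1 this).1)
  have hperp : ∀ m ∈ L2, ∑ p, wordOf m p * v p = 0 := by
    intro m hm
    have h1 : (Equiv.Perm.ofSubtype h⁻¹) • ofMask m ∈ octads :=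
      hexad_ext (inv_mem hh) hm
    have h2 := word_mem_of_octad h1
    have h3 := Cfsg.Agent.Lib.Compute.GolayDual.golay_orth _ h2 _ hm0
    have h4 : (Equiv.Perm.ofSubtype h⁻¹)⁻¹ = g := by
      rw [map_inv, inv_inv]
    rw [h4] at h3
    rw [← h3, ← Equiv.sum_comp (g⁻¹ : Equiv.Perm GolayPt)
      (fun x => wordOf m (g x) * wordOf m0 x)]
    apply Finset.sum_congr rfl
    intro p _
    have h5 : g (g⁻¹ p) = p := by simp
    simp only [hv]
    rw [h5]
  by_cases hd : ∑ p, wordOf m0 p * v p = 0
  · left
    have h1 : v ∈ golayCode := by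
      apply mem_code_of_perp L_span
      intro m hm
      rcases List.mem_cons.1 hm with rfl | hm
      · exact hd
      · exact hperp m hm
    apply mem_M24_of_span L_span
    intro m hm
    rcases List.mem_cons.1 hm with rfl | hm
    · exact octad_of_word m0_card h1
    · exact hexad_ext hh hm
  · right
    have hd1 : ∑ p, wordOf m0 p * v p = 1 := zmod2_eq_one_of_ne hd
    set v' : GolayPt → ZMod 2 := fun p => wordOf m0 ((g * tau)⁻¹ p) with hv'
    have hvv : v' = v + wordOf 12582912 := by
      funext p
      simp only [hv', hv, Pi.add_apply, mul_inv_rev, Equiv.Perm.coe_mul, Function.comp]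
      by_cases h1 : p = none
      · subst h1
        have h5 : g⁻¹ none = none := by
          rw [Equiv.Perm.inv_eq_iff_eq]
          exact (ofSubtype_fix h (by simp [P2])).symm
        rw [h5]
        decide +kernel
      · by_cases h2 : p = q22
        · subst h2
          have h5 : g⁻¹ q22 = q22 := by
            rw [Equiv.Perm.inv_eq_iff_eq]
            exact (ofSubtype_fix h (by simp [P2])).symm
          rw [h5]
          decide +kernel
        · have h3 : g⁻¹ p ≠ none := by
            intro h4
            rw [Equiv.Perm.inv_eq_iff_eq] at h4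
            apply h1
            rw [h4]
            exact ofSubtype_fix h (by simp [P2])
          have h3' : g⁻¹ p ≠ q22 := by
            intro h4
            rw [Equiv.Perm.inv_eq_iff_eq] at h4
            apply h2
            rw [h4]
            exact ofSubtype_fix h (by simp [P2])
          have h6 : tau⁻¹ (g⁻¹ p) = g⁻¹ p := by
            rw [Equiv.swap_inv]
            exact Equiv.swap_apply_of_ne_of_ne h3 h3'
          rw [h6]
          have h7 : wordOf 12582912 p = 0 := by
            have : ∀ p : GolayPt, p ≠ none → p ≠ q22 → wordOf 12582912 p = 0 := by decide +kernel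
            exact this p h1 h2
          rw [h7, add_zero]
    have h1 : v' ∈ golayCode := by
      apply mem_code_of_perp L_span
      intro m hm
      rw [hvv]
      simp only [Pi.add_apply, mul_add]
      rw [Finset.sum_add_distrib]
      rcases List.mem_cons.1 hm with rfl | hm
      · rw [hd1]
        have : ∑ p, wordOf m0 p * wordOf 12582912 p = 1 := by decide +kernel
        rw [this]
        decide
      · rw [hperp m hm, zero_add]
        have : ∀ m ∈ L2, ∑ p, wordOf m p * wordOf 12582912 p = 0 := by decide +kernel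
        exact this m hm
    apply mem_M24_of_span L_span
    intro m hm
    rcases List.mem_cons.1 hm with rfl | hm
    · exact octad_of_word m0_card h1
    · rw [mul_smul, tau_smul_L2 hm]
      exact hexad_ext hh hm

theorem not_P2_iff {a : GolayPt} : ¬ P2 a ↔ a = none ∨ a = q22 := by
  constructor
  · intro ha
    by_contra h5
    push Not at h5
    exact ha h5
  · rintro (rfl | rfl) h5
    · exact h5.1 rfl
    · exact h5.2 rfl

theorem restr2_mem {g : Equiv.Perm GolayPt} (hg : g ∈ M24) (hp : ∀ x, P2 (g x) ↔ P2 x) :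
    g.subtypePerm hp ∈ setSystemAut Hex := by
  apply aut_of_subset
  rintro _ ⟨b, hb, hn, hq, rfl⟩
  have key : ∀ a, ¬ P2 a → a ∈ g • b := by
    intro a ha
    have h1 : ¬ P2 (g⁻¹ a) := by
      rw [← hp (g⁻¹ a)]
      simpa using ha
    rw [Finset.mem_smul_finset]
    refine ⟨g⁻¹ a, ?_, by simp⟩
    rcases not_P2_iff.1 h1 with h2 | h2 <;> rw [h2] <;> assumption
  refine ⟨g • b, smul_mem_octads hg hb, key _ (by simp [P2]), key _ (by simp [P2]), ?_⟩
  rw [subtype_smul g hp]

/-- The automorphism group of the hexads. -/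
abbrev A2 : Subgroup (Equiv.Perm Om2) := setSystemAut Hex

/-- Those automorphisms that extend by the identity. -/
def H2 : Subgroup A2 :=
  M24.comap ((Equiv.Perm.ofSubtype (p := P2)).comp A2.subtype)

theorem mem_H2 {x : A2} : x ∈ H2 ↔ Equiv.Perm.ofSubtype x.1 ∈ M24 := Iff.rfl

theorem pres_of_fix {g : Equiv.Perm GolayPt} (h1 : g none = none) (h2 : g q22 = q22) (x : GolayPt) :
    P2 (g x) ↔ P2 x := by
  constructor
  · rintro ⟨h3, h4⟩
    refine ⟨?_, ?_⟩
    · rintro rfl; exact h3 h1
    · rintro rfl; exact h4 h2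
  · rintro ⟨h3, h4⟩
    refine ⟨?_, ?_⟩
    · intro h5; exact h3 (g.injective (h5.trans h1.symm))
    · intro h5; exact h4 (g.injective (h5.trans h2.symm))

theorem pres_of_swap {g : Equiv.Perm GolayPt} (h1 : g none = q22) (h2 : g q22 = none) (x : GolayPt) :
    P2 (g x) ↔ P2 x := by
  constructor
  · rintro ⟨h3, h4⟩
    refine ⟨?_, ?_⟩
    · rintro rfl; exact h4 h1
    · rintro rfl; exact h3 h2
  · rintro ⟨h3, h4⟩
    refine ⟨?_, ?_⟩
    · intro h5; exact h4 (g.injective (h5.trans h2.symm))
    · intro h5; exact h3 (g.injective (h5.trans h1.symm))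

/-- The subgroup `H2` is the two-point stabiliser. -/
noncomputable def h2Equiv :
    H2 ≃* (MulAction.stabilizer M24 (none : GolayPt) ⊓ MulAction.stabilizer M24 q22 : Subgroup M24) where
  toFun x := ⟨⟨Equiv.Perm.ofSubtype x.1.1, x.2⟩,
    ofSubtype_fix x.1.1 (by simp [P2]), ofSubtype_fix x.1.1 (by simp [P2])⟩
  invFun g := ⟨⟨(g.1.1).subtypePerm (pres_of_fix g.2.1 g.2.2),
      restr2_mem g.1.2 (pres_of_fix g.2.1 g.2.2)⟩, by
    rw [mem_H2]
    show Equiv.Perm.ofSubtype ((g.1.1).subtypePerm (pres_of_fix g.2.1 g.2.2)) ∈ M24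
    rw [Equiv.Perm.ofSubtype_subtypePerm]
    · exact g.1.2
    · intro x hx
      by_contra h3
      rcases not_P2_iff.1 h3 with rfl | rfl
      · exact hx g.2.1
      · exact hx g.2.2⟩
  left_inv x := by
    apply Subtype.ext; apply Subtype.ext
    exact Equiv.Perm.subtypePerm_ofSubtype x.1.1
  right_inv g := by
    apply Subtype.ext; apply Subtype.ext
    show Equiv.Perm.ofSubtype ((g.1.1).subtypePerm (pres_of_fix g.2.1 g.2.2)) = g.1.1
    rw [Equiv.Perm.ofSubtype_subtypePerm]
    intro x hx
    by_contra h3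
    rcases not_P2_iff.1 h3 with rfl | rfl
    · exact hx g.2.1
    · exact hx g.2.2
  map_mul' x y := by
    apply Subtype.ext; apply Subtype.ext
    exact map_mul (Equiv.Perm.ofSubtype (p := P2)) x.1.1 y.1.1

theorem h2_index : H2.index = 2 := by
  rw [Subgroup.index_eq_two_iff]
  obtain ⟨s, hs, hs1, hs2⟩ := Cfsg.Agent.Lib.Sporadic.M24Act.exists_map_two
    (p := none) (q := q22) (p' := q22) (q' := none) (by simp) (by simp)
  have hp := pres_of_swap hs1 hs2
  refine ⟨⟨s.subtypePerm hp, restr2_mem hs hp⟩, fun b => ?_⟩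
  have h1 : Equiv.Perm.ofSubtype (s.subtypePerm hp) = s * tau := by
    ext1 x
    by_cases hx : P2 x
    · rw [Equiv.Perm.ofSubtype_subtypePerm_of_mem _ hx]
      show s x = s (Equiv.swap none q22 x)
      rw [Equiv.swap_apply_of_ne_of_ne hx.1 hx.2]
    · rw [Equiv.Perm.ofSubtype_subtypePerm_of_not_mem _ hx]
      show x = s (Equiv.swap none q22 x)
      rcases not_P2_iff.1 hx with rfl | rfl
      · simp [hs2]
      · simp [hs1]
  have h2 : s * tau = tau * s := by
    ext1 x
    show s (Equiv.swap none q22 x) = Equiv.swap none q22 (s x)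
    by_cases hx : P2 x
    · rw [Equiv.swap_apply_of_ne_of_ne hx.1 hx.2,
        Equiv.swap_apply_of_ne_of_ne ((hp x).2 hx).1 ((hp x).2 hx).2]
    · rcases not_P2_iff.1 hx with rfl | rfl
      · simp [hs1, hs2]
      · simp [hs1, hs2]
  have h3 : b * ⟨s.subtypePerm hp, restr2_mem hs hp⟩ ∈ H2 ↔
      Equiv.Perm.ofSubtype b.1 * tau ∈ M24 := by
    rw [mem_H2]
    show Equiv.Perm.ofSubtype (b.1 * s.subtypePerm hp) ∈ M24 ↔ _
    rw [map_mul, h1, h2, ← mul_assoc]
    exact Subgroup.mul_mem_cancel_right _ hs
  have h4 : ¬ (Equiv.Perm.ofSubtype b.1 * tau ∈ M24 ∧ Equiv.Perm.ofSubtype b.1 ∈ M24) := by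
    rintro ⟨h5, h6⟩
    exact tau_not_mem ((Subgroup.mul_mem_cancel_left _ h6).1 h5)
  rcases extension b.2 with h5 | h5
  · exact Or.inr ⟨mem_H2.2 h5, fun h6 => h4 ⟨h3.1 h6, h5⟩⟩
  · exact Or.inl ⟨h3.2 h5, fun h6 => h4 ⟨h5, mem_H2.1 h6⟩⟩

theorem card_H2 : Nat.card H2 = 443520 := by
  rw [Nat.card_congr h2Equiv.toEquiv]
  exact Cfsg.Agent.S0378.result none q22 (by simp)

theorem simple_H2 : IsSimpleGroup H2 := by
  have := Cfsg.Agent.S0379.result none q22 (by simp)
  exact h2Equiv.isSimpleGroup

theorem card_A2 : Nat.card A2 = 887040 := by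
  have := H2.card_mul_index
  rw [card_H2, h2_index] at this
  omega

theorem hex_threeTrans : MulAction.IsMultiplyPretransitive A2 Om2 3 := by
  refine ⟨fun x y => ?_⟩
  have key : ∀ z : Fin 3 ↪ Om2, Function.Injective
      (Fin.cons none (Fin.cons q22 (fun i => (z i).1)) : Fin 5 → GolayPt) := by
    intro z
    rw [Fin.cons_injective_iff, Fin.cons_injective_iff]
    refine ⟨?_, ?_, fun i j hij => z.injective (Subtype.ext hij)⟩
    · rintro ⟨i, hi⟩
      revert hi
      refine Fin.cases ?_ (fun j => ?_) i
      · simp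
      · simpa using (z j).2.1
    · rintro ⟨i, hi⟩
      exact (z i).2.2 hi
  have := m24_fiveTrans
  obtain ⟨g, hg⟩ := MulAction.exists_smul_eq M24
    (⟨_, key x⟩ : Fin 5 ↪ GolayPt) (⟨_, key y⟩ : Fin 5 ↪ GolayPt)
  have hg' : ∀ i, g.1 ((Fin.cons none (Fin.cons q22 (fun i => (x i).1)) : Fin 5 → GolayPt) i) =
      (Fin.cons none (Fin.cons q22 (fun i => (y i).1)) : Fin 5 → GolayPt) i := by
    intro i
    exact congrArg (fun z : Fin 5 ↪ GolayPt => z i) hg
  have hn : g.1 none = none := by simpa using hg' 0
  have hq : g.1 q22 = q22 := by simpa using hg' (Fin.succ 0)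
  refine ⟨⟨g.1.subtypePerm (pres_of_fix hn hq), restr2_mem g.2 (pres_of_fix hn hq)⟩, ?_⟩
  apply Function.Embedding.ext
  intro i
  have := hg' i.succ.succ
  simp only [Fin.cons_succ] at this
  exact Subtype.ext this

end Cfsg.Agent.Lib.BasicSteiner.WittStab2
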